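import Mathlib
import Cfsg.Agent.Lib.Helper6.InvLen

set_option autoImplicit false

namespace Cfsg.Agent.Lib.Helper6.Cox

open Cfsg.Agent.Lib.Helper6.InvLen

section Core

variable {W C : Type*} [Group W] [Group C] {ι : Type*}

/-- product of the images of a word -/
def pr {X : Type*} [Group X] (g : ι → X) (l : List ι) : X := (l.map g).prod

theorem pr_nil {X : Type*} [Group X] (g : ι → X) : pr g [] = 1 := rfl

theorem pr_cons {X : Type*} [Group X] (g : ι → X) (a : ι) (l : List ι) :
    pr g (a :: l) = g a * pr g l := by simp [pr]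

theorem pr_append {X : Type*} [Group X] (g : ι → X) (l1 l2 : List ι) :
    pr g (l1 ++ l2) = pr g l1 * pr g l2 := by simp [pr]

theorem pr_singleton {X : Type*} [Group X] (g : ι → X) (a : ι) : pr g [a] = g a := by simp [pr]

theorem pr_reverse {X : Type*} [Group X] (g : ι → X) (hg : ∀ i, g i * g i = 1) (l : List ι) :
    pr g l.reverse = (pr g l)⁻¹ := by
  induction l with
  | nil => simp [pr]
  | cons a l ih =>
    rw [List.reverse_cons, pr_append, ih, pr_singleton, pr_cons, mul_inv_rev,
      inv_eq_of_mul_eq_one_left (hg a)]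

theorem pr_delete {X : Type*} [Group X] (g : ι → X) (hg : ∀ i, g i * g i = 1)
    {l1 l2 l3 : List ι} {a b : ι} (h : g a * pr g l2 = pr g l2 * g b) :
    pr g (l1 ++ a :: l2 ++ b :: l3) = pr g (l1 ++ l2 ++ l3) := by
  simp only [pr_append, pr_cons]
  have : pr g l1 * (g a * pr g l2) * (g b * pr g l3) = pr g l1 * pr g l2 * pr g l3 := by
    rw [h, mul_assoc, mul_assoc, ← mul_assoc (g b), ← mul_assoc (pr g l2), mul_assoc (pr g l2),
      hg b]
    group
  rw [this]

theorem pr_comm_one {X : Type*} [Group X] (g : ι → X) (l1 l2 : List ι) :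
    pr g (l1 ++ l2) = 1 ↔ pr g (l2 ++ l1) = 1 := by
  rw [pr_append, pr_append]
  constructor
  · intro h
    have : pr g l2 = (pr g l1)⁻¹ := eq_inv_of_mul_eq_one_right h
    rw [this]; simp
  · intro h
    have : pr g l1 = (pr g l2)⁻¹ := eq_inv_of_mul_eq_one_right h
    rw [this]; simp

variable (f : ι → W) (σ : ι → C)

theorem good_of_delete' (hσ : ∀ i, σ i * σ i = 1) (hsq : ∀ i, f i * f i = 1) (r : ℕ)
    (IH : ∀ l' : List ι, l'.length < r → pr f l' = 1 → pr σ l' = 1)
    (l1 : List ι) (a : ι) (l2 : List ι) (b : ι) (l3 : List ι)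
    (hlen : (l1 ++ a :: l2 ++ b :: l3).length = r)
    (hrel : pr f (l1 ++ a :: l2 ++ b :: l3) = 1)
    (hex : f a * pr f l2 = pr f l2 * f b) (hexC : σ a * pr σ l2 = pr σ l2 * σ b) :
    pr σ (l1 ++ a :: l2 ++ b :: l3) = 1 := by
  rw [pr_delete σ hσ hexC]
  rw [pr_delete f hsq hex] at hrel
  apply IH _ _ hrel
  simp only [List.length_append, List.length_cons] at hlen ⊢
  omega

theorem good_of_delete (hσ : ∀ i, σ i * σ i = 1) (hsq : ∀ i, f i * f i = 1) (r : ℕ)
    (IH : ∀ l' : List ι, l'.length < r → pr f l' = 1 → pr σ l' = 1)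
    (l1 : List ι) (a : ι) (l2 : List ι) (b : ι) (l3 : List ι)
    (hlen : (l1 ++ a :: l2 ++ b :: l3).length = r)
    (hrel : pr f (l1 ++ a :: l2 ++ b :: l3) = 1)
    (hex : f a * pr f l2 = pr f l2 * f b) (hshort : 2 * l2.length + 2 < r) :
    pr σ (l1 ++ a :: l2 ++ b :: l3) = 1 := by
  have h1 : pr σ (a :: l2 ++ b :: l2.reverse) = 1 := by
    apply IH
    · simp only [List.length_append, List.length_cons, List.length_reverse]
      omega
    · rw [pr_append, pr_cons, pr_cons, pr_reverse f hsq, hex, mul_assoc, ← mul_assoc (f b),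
        hsq b, one_mul, mul_inv_cancel]
  have hexC : σ a * pr σ l2 = pr σ l2 * σ b := by
    rw [pr_append, pr_cons, pr_cons, pr_reverse σ hσ] at h1
    have h2 : σ a * pr σ l2 = (σ b * (pr σ l2)⁻¹)⁻¹ := eq_inv_of_mul_eq_one_left h1
    rw [h2, mul_inv_rev, inv_inv, inv_eq_of_mul_eq_one_left (hσ b)]
  exact good_of_delete' f σ hσ hsq r IH l1 a l2 b l3 hlen hrel hex hexC

theorem half_word (hσ : ∀ i, σ i * σ i = 1) (hsq : ∀ i, f i * f i = 1)
    (hgen : Subgroup.closure (Set.range f) = ⊤)
    (hdel : ∀ l : List ι, len (Set.range f) (pr f l) < l.length →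
      ∃ l1 a l2 b l3, l = l1 ++ a :: l2 ++ b :: l3 ∧ f a * pr f l2 = pr f l2 * f b)
    (r : ℕ) (IH : ∀ l' : List ι, l'.length < r → pr f l' = 1 → pr σ l' = 1)
    (p v : List ι) (hlen : (p ++ v).length = r) (hvp : v.length < p.length)
    (hpv : p.length ≤ v.length + 2) (hrel : pr f (p ++ v) = 1) :
    pr σ (p ++ v) = 1 ∨
      ∃ a l2 b, p = a :: l2 ++ [b] ∧ l2.length = v.length ∧ f a * pr f l2 = pr f l2 * f b := by
  have hS : ∀ s ∈ Set.range f, s * s = 1 := by
    rintro _ ⟨i, rfl⟩
    exact hsq i
  have hp : pr f p = (pr f v)⁻¹ := by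
    rw [pr_append] at hrel
    exact eq_inv_of_mul_eq_one_left hrel
  have hlenp : len (Set.range f) (pr f p) < p.length := by
    rw [hp, len_inv hS hgen]
    have h1 : len (Set.range f) (pr f v) ≤ (v.map f).length := by
      apply len_le
      intro x hx
      obtain ⟨i, _, rfl⟩ := List.mem_map.1 hx
      exact ⟨i, rfl⟩
    rw [List.length_map] at h1
    omega
  obtain ⟨l1, a, l2, b, l3, e, hex⟩ := hdel p hlenp
  rw [List.length_append] at hlen
  have hl : p.length = l1.length + l2.length + l3.length + 2 := by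
    rw [e]
    simp only [List.length_append, List.length_cons]
    omega
  by_cases hshort : 2 * l2.length + 2 < r
  · left
    subst e
    have e2 : l1 ++ a :: l2 ++ b :: l3 ++ v = l1 ++ a :: l2 ++ b :: (l3 ++ v) := by simp
    rw [e2] at hrel ⊢
    apply good_of_delete f σ hσ hsq r IH l1 a l2 b (l3 ++ v) _ hrel hex hshort
    simp only [List.length_append, List.length_cons] at hl hlen ⊢
    omega
  · right
    have hl1 : l1 = [] := List.eq_nil_of_length_eq_zero (by omega)
    have hl3 : l3 = [] := List.eq_nil_of_length_eq_zero (by omega)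
    subst hl1 hl3
    refine ⟨a, l2, b, by simpa using e, ?_, hex⟩
    simp only [List.length_nil] at hl
    omega

theorem shape {a x z a0 b0 : ι} {t l2 v : List ι}
    (h : a :: x :: z :: t = a0 :: l2 ++ [b0] ++ v) (hl : l2.length = v.length) :
    a0 = a ∧ ∃ m' n' y' v', l2 = x :: m' ∧ m' ++ [b0] = z :: n' ∧ v = y' :: v' ∧
      t = n' ++ y' :: v' ∧ m'.length = n'.length ∧ v'.length = n'.length := by
  cases l2 with
  | nil =>
    have hv : v = [] := List.eq_nil_of_length_eq_zero (by simpa using hl.symm)
    subst hv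
    have := congrArg List.length h
    simp at this
  | cons x0 m' =>
    cases v with
    | nil => simp at hl
    | cons y' v' =>
      simp only [List.length_cons, add_left_inj] at hl
      simp only [List.cons_append, List.cons.injEq, List.append_assoc] at h
      obtain ⟨rfl, rfl, h⟩ := h
      refine ⟨rfl, ?_⟩
      cases m' with
      | nil =>
        simp only [List.nil_append, List.cons.injEq] at h
        obtain ⟨rfl, rfl⟩ := h
        refine ⟨[], [], y', v', rfl, by simp, rfl, by simp, rfl, ?_⟩
        simpa using hl.symm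
      | cons c m'' =>
        simp only [List.cons_append, List.cons.injEq] at h
        obtain ⟨rfl, rfl⟩ := h
        refine ⟨z :: m'', m'' ++ [b0], y', v', rfl, by simp, rfl, by simp, by simp, ?_⟩
        simp only [List.length_cons] at hl
        simp only [List.length_append, List.length_cons, List.length_nil]
        omega

theorem first_eq_third (hinj : Function.Injective f) (hσ : ∀ i, σ i * σ i = 1)
    (hsq : ∀ i, f i * f i = 1) (hgen : Subgroup.closure (Set.range f) = ⊤)
    (hdel : ∀ l : List ι, len (Set.range f) (pr f l) < l.length →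
      ∃ l1 a l2 b l3, l = l1 ++ a :: l2 ++ b :: l3 ∧ f a * pr f l2 = pr f l2 * f b)
    (r : ℕ) (IH : ∀ l' : List ι, l'.length < r → pr f l' = 1 → pr σ l' = 1)
    (a x z : ι) (t : List ι) (hlen : (a :: x :: z :: t).length = r)
    (hrel : pr f (a :: x :: z :: t) = 1) (hbad : pr σ (a :: x :: z :: t) ≠ 1) : a = z := by
  have hr3 : 3 ≤ r := by rw [← hlen]; simp
  obtain ⟨p, v, hsplit, hlt, hld⟩ : ∃ p v, a :: x :: z :: t = p ++ v ∧ p.length = r / 2 + 1 ∧
      v.length = r - (r / 2 + 1) := by
    refine ⟨List.take (r / 2 + 1) (a :: x :: z :: t), List.drop (r / 2 + 1) (a :: x :: z :: t),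
      (List.take_append_drop _ _).symm, ?_, ?_⟩
    · rw [List.length_take, hlen]; omega
    · rw [List.length_drop, hlen]
  rcases half_word f σ hσ hsq hgen hdel r IH p v (by rw [← hsplit]; exact hlen)
      (by rw [hlt, hld]; omega) (by rw [hlt, hld]; omega) (by rw [← hsplit]; exact hrel) with
    h | ⟨a0, l2, b0, hp, hl2, hR1⟩
  · rw [← hsplit] at h
    exact absurd h hbad
  rw [hp] at hsplit
  obtain ⟨rfl, m', n', y', v', rfl, hn1, rfl, rfl, hlenm, hlenv⟩ := shape hsplit hl2
  have hr : r = 2 * n'.length + 4 := by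
    rw [← hlen]
    simp only [List.length_cons, List.length_append]
    omega
  -- l = a0 :: x :: (z :: n') ++ y' :: v'
  have hl : a0 :: x :: z :: (n' ++ y' :: v') = [a0] ++ x :: (z :: n') ++ y' :: v' := by simp
  -- rotation
  have e1 : (x :: (z :: n') ++ [y']) ++ (v' ++ [a0]) = (x :: (z :: n') ++ y' :: v') ++ [a0] := by
    simp
  have e2 : [a0] ++ (x :: (z :: n') ++ y' :: v') = a0 :: x :: z :: (n' ++ y' :: v') := by simp
  have hrot : pr f ((x :: (z :: n') ++ [y']) ++ (v' ++ [a0])) = 1 := by
    rw [e1, ← pr_comm_one, e2]; exact hrel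
  have hrotbad : pr σ ((x :: (z :: n') ++ [y']) ++ (v' ++ [a0])) ≠ 1 := by
    rw [e1, Ne, ← pr_comm_one, e2]; exact hbad
  rcases half_word f σ hσ hsq hgen hdel r IH (x :: (z :: n') ++ [y']) (v' ++ [a0])
      (by simp only [List.length_append, List.length_cons, List.length_nil]; omega)
      (by simp only [List.length_append, List.length_cons, List.length_nil]; omega)
      (by simp only [List.length_append, List.length_cons, List.length_nil]; omega) hrot with
    h | ⟨a1, k, b1, hp1, _, hR1'⟩
  · exact absurd h hrotbad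
  have hk : a1 = x ∧ k = z :: n' ∧ b1 = y' := by
    simp only [List.cons_append, List.cons.injEq] at hp1
    obtain ⟨h1, h2⟩ := hp1
    have h3 := List.append_inj' (s₁ := z :: n') (t₁ := [y']) (s₂ := k) (t₂ := [b1])
      (by simpa using h2) rfl
    exact ⟨h1.symm, h3.1.symm, by simpa using h3.2.symm⟩
  obtain ⟨rfl, rfl, rfl⟩ := hk
  -- the modified word V
  have eV : (z :: (a1 :: m') ++ [b0]) ++ (b1 :: n'.reverse) =
      (z :: a1 :: (z :: n')) ++ (b1 :: n'.reverse) := by
    have e0 : z :: (a1 :: m') ++ [b0] = z :: a1 :: (m' ++ [b0]) := by simp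
    rw [e0, hn1]
  have hV : pr f ((z :: (a1 :: m') ++ [b0]) ++ (b1 :: n'.reverse)) = 1 := by
    rw [eV]
    simp only [pr_append, pr_cons, pr_reverse f hsq]
    have h1 : f a1 * (f z * pr f n') = f z * pr f n' * f b1 := by
      simpa only [pr_cons] using hR1'
    rw [h1]
    have : f z * (f z * pr f n' * f b1) * (f b1 * (pr f n')⁻¹) =
        (f z * f z) * pr f n' * (f b1 * f b1) * (pr f n')⁻¹ := by group
    rw [this, hsq z, hsq b1]; group
  rcases half_word f σ hσ hsq hgen hdel r IH (z :: (a1 :: m') ++ [b0]) (b1 :: n'.reverse)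
      (by simp only [List.length_append, List.length_cons, List.length_nil,
        List.length_reverse]; omega)
      (by simp only [List.length_append, List.length_cons, List.length_nil,
        List.length_reverse]; omega)
      (by simp only [List.length_append, List.length_cons, List.length_nil,
        List.length_reverse]; omega) hV with
    h | ⟨a2, k2, b2, hp2, _, hRV⟩
  · -- Good V gives the relation in C, then delete
    exfalso
    apply hbad
    rw [eV] at h
    simp only [pr_append, pr_cons, pr_reverse σ hσ] at h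
    have hexC : σ a1 * pr σ (z :: n') = pr σ (z :: n') * σ b1 := by
      have h3 : σ a1 * (σ z * pr σ n') = (σ z)⁻¹ * (σ b1 * (pr σ n')⁻¹)⁻¹ := by
        calc σ a1 * (σ z * pr σ n')
            = (σ z)⁻¹ * (σ z * (σ a1 * (σ z * pr σ n')) * (σ b1 * (pr σ n')⁻¹)) *
                (σ b1 * (pr σ n')⁻¹)⁻¹ := by group
          _ = (σ z)⁻¹ * (σ b1 * (pr σ n')⁻¹)⁻¹ := by rw [h]; group
      rw [pr_cons, h3, inv_eq_of_mul_eq_one_left (hσ z), mul_inv_rev, inv_inv,
        inv_eq_of_mul_eq_one_left (hσ b1), mul_assoc]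
    rw [hl]
    apply good_of_delete' f σ hσ hsq r IH [a0] a1 (z :: n') b1 v' _ _ hR1' hexC
    · rw [← hl]; exact hlen
    · rw [← hl]; exact hrel
  · have hk2 : a2 = z ∧ k2 = a1 :: m' ∧ b2 = b0 := by
      simp only [List.cons_append, List.cons.injEq] at hp2
      obtain ⟨h1, h2⟩ := hp2
      have h3 := List.append_inj' (s₁ := a1 :: m') (t₁ := [b0]) (s₂ := k2) (t₂ := [b2])
        (by simpa using h2) rfl
      exact ⟨h1.symm, h3.1.symm, by simpa using h3.2.symm⟩
    obtain ⟨rfl, rfl, rfl⟩ := hk2
    apply hinj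
    rw [← hRV] at hR1
    exact mul_right_cancel hR1

theorem alt_of_bad (hinj : Function.Injective f) (hσ : ∀ i, σ i * σ i = 1)
    (hsq : ∀ i, f i * f i = 1) (hgen : Subgroup.closure (Set.range f) = ⊤)
    (hdel : ∀ l : List ι, len (Set.range f) (pr f l) < l.length →
      ∃ l1 a l2 b l3, l = l1 ++ a :: l2 ++ b :: l3 ∧ f a * pr f l2 = pr f l2 * f b)
    (r : ℕ) (IH : ∀ l' : List ι, l'.length < r → pr f l' = 1 → pr σ l' = 1)
    (l : List ι) (hlen : l.length = r) (hrel : pr f l = 1) (hbad : pr σ l ≠ 1)
    (pre : List ι) (a x z : ι) (t : List ι) (h : l = pre ++ a :: x :: z :: t) : a = z := by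
  subst h
  apply first_eq_third f σ hinj hσ hsq hgen hdel r IH a x z (t ++ pre)
  · rw [← hlen]
    simp only [List.length_cons, List.length_append]
    omega
  · have := (pr_comm_one f pre (a :: x :: z :: t)).1 hrel
    simpa using this
  · intro hh
    apply hbad
    exact (pr_comm_one σ pre (a :: x :: z :: t)).2 (by simpa using hh)

theorem alt_prod {X : Type*} [Group X] (g : ι → X) :
    ∀ (q : ℕ) (l : List ι) (a b : ι), l.length = 2 * q →
      (∀ (pre : List ι) (a' x z : ι) (t : List ι),
        a :: b :: l = pre ++ a' :: x :: z :: t → a' = z) →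
      pr g l = (g a * g b) ^ q := by
  intro q
  induction q with
  | zero =>
    intro l a b hl _
    have : l = [] := List.eq_nil_of_length_eq_zero (by simpa using hl)
    subst this
    simp [pr_nil]
  | succ q ih =>
    intro l a b hl halt
    match l, hl, halt with
    | [], hl, _ => simp at hl
    | [c], hl, _ =>
      simp only [List.length_cons, List.length_nil] at hl
      omega
    | c :: d :: l', hl, halt =>
      have hac : a = c := halt [] a b c (d :: l') rfl
      have hbd : b = d := halt [a] b c d l' rfl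
      subst hac hbd
      have h3 := ih l' a b (by simp only [List.length_cons] at hl; omega) (by
        intro pre a' x z t h
        apply halt (a :: b :: pre) a' x z t
        simp [h])
      rw [pr_cons, pr_cons, h3, ← mul_assoc, ← pow_succ']

theorem rel_imp_good (hinj : Function.Injective f) (hσ : ∀ i, σ i * σ i = 1)
    (hsq : ∀ i, f i * f i = 1) (hgen : Subgroup.closure (Set.range f) = ⊤)
    (hdel : ∀ l : List ι, len (Set.range f) (pr f l) < l.length →
      ∃ l1 a l2 b l3, l = l1 ++ a :: l2 ++ b :: l3 ∧ f a * pr f l2 = pr f l2 * f b)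
    (hbraid : ∀ a b q, (f a * f b) ^ q = 1 → (σ a * σ b) ^ q = 1) :
    ∀ l : List ι, pr f l = 1 → pr σ l = 1 := by
  have key : ∀ r : ℕ, ∀ l : List ι, l.length = r → pr f l = 1 → pr σ l = 1 := by
    intro r
    induction r using Nat.strong_induction_on with
    | _ r ih =>
      intro l hlen hrel
      have IH : ∀ l' : List ι, l'.length < r → pr f l' = 1 → pr σ l' = 1 :=
        fun l' hl' h' => ih _ hl' l' rfl h'
      by_contra hbad
      have hr1 : 1 ≤ r := by
        rcases Nat.eq_zero_or_pos r with h0 | h0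
        · exfalso
          apply hbad
          have : l = [] := List.eq_nil_of_length_eq_zero (by rw [hlen, h0])
          rw [this]; rfl
        · exact h0
      obtain ⟨p, v, hsplit, hlt, hld⟩ : ∃ p v, l = p ++ v ∧ p.length = r / 2 + 1 ∧
          v.length = r - (r / 2 + 1) :=
        ⟨List.take (r / 2 + 1) l, List.drop (r / 2 + 1) l, (List.take_append_drop _ _).symm,
          by rw [List.length_take, hlen]; omega, by rw [List.length_drop, hlen]⟩
      rcases half_word f σ hσ hsq hgen hdel r IH p v (by rw [← hsplit]; exact hlen)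
          (by rw [hlt, hld]; omega) (by rw [hlt, hld]; omega) (by rw [← hsplit]; exact hrel) with
        h | ⟨a0, l2, b0, hp, hl2, _⟩
      · rw [← hsplit] at h
        exact hbad h
      have hr : r = 2 * (l2.length + 1) := by
        rw [hp] at hlt
        simp only [List.length_append, List.length_cons, List.length_nil] at hlt
        omega
      have halt := alt_of_bad f σ hinj hσ hsq hgen hdel r IH l hlen hrel hbad
      match l, hlen, hrel, hbad, halt with
      | [], hlen, _, _, _ =>
        simp only [List.length_nil] at hlen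
        omega
      | [c], hlen, _, _, _ =>
        simp only [List.length_cons, List.length_nil] at hlen
        omega
      | a :: b :: l', hlen, hrel, hbad, halt =>
        have hl' : l'.length = 2 * l2.length := by
          simp only [List.length_cons] at hlen
          omega
        have h1 := alt_prod σ l2.length l' a b hl' (fun pre a' x z t h => halt pre a' x z t h)
        have h2 := alt_prod f l2.length l' a b hl' (fun pre a' x z t h => halt pre a' x z t h)
        apply hbad
        rw [pr_cons, pr_cons, h1, ← mul_assoc, ← pow_succ']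
        apply hbraid
        rw [pow_succ', mul_assoc, ← h2, ← pr_cons, ← pr_cons]
        exact hrel
  exact fun l h => key _ l rfl h

end Core

section Wrapper

variable {W : Type*} [Group W] {ι : Type*} (f : ι → W)

/-- the Coxeter matrix of the orders of the products of two generators -/
noncomputable def ordMatrix (hinj : Function.Injective f) (hsq : ∀ i, f i * f i = 1) : CoxeterMatrix ι where
  M := Matrix.of fun i j => orderOf (f i * f j)
  isSymm := by
    ext i j
    simp only [Matrix.transpose_apply, Matrix.of_apply]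
    have : f j * f i = (f i * f j)⁻¹ := by
      rw [mul_inv_rev, inv_eq_of_mul_eq_one_left (hsq i), inv_eq_of_mul_eq_one_left (hsq j)]
    rw [this, orderOf_inv]
  diagonal := fun i => by simp [hsq i]
  off_diagonal := fun i j hij => by
    simp only [Matrix.of_apply]
    intro h
    rw [orderOf_eq_one_iff] at h
    apply hij
    apply hinj
    have h2 : f i = (f j)⁻¹ := eq_inv_of_mul_eq_one_left h
    rw [h2]
    exact inv_eq_of_mul_eq_one_left (hsq j)

theorem exists_coxeterSystem (hinj : Function.Injective f) (hsq : ∀ i, f i * f i = 1)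
    (hgen : Subgroup.closure (Set.range f) = ⊤)
    (hdel : ∀ l : List ι, len (Set.range f) (pr f l) < l.length →
      ∃ l1 a l2 b l3, l = l1 ++ a :: l2 ++ b :: l3 ∧ f a * pr f l2 = pr f l2 * f b) :
    ∃ (M : CoxeterMatrix ι) (cs : CoxeterSystem M W), ∀ i, cs.simple i = f i := by
  let M : CoxeterMatrix ι := ordMatrix f hinj hsq
  let cs0 := M.toCoxeterSystem
  have hlift : M.IsLiftable f := fun i j => pow_orderOf_eq_one (f i * f j)
  let φ : M.Group →* W := cs0.lift ⟨f, hlift⟩
  have hφs : ∀ i, φ (cs0.simple i) = f i := fun i => cs0.lift_apply_simple hlift i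
  have hφw : ∀ l : List ι, φ (pr cs0.simple l) = pr f l := by
    intro l
    induction l with
    | nil => simp [pr]
    | cons a l ih => rw [pr_cons, pr_cons, map_mul, hφs, ih]
  have hσ : ∀ i, cs0.simple i * cs0.simple i = 1 := cs0.simple_mul_simple_self
  have hbraid : ∀ a b q, (f a * f b) ^ q = 1 → (cs0.simple a * cs0.simple b) ^ q = 1 := by
    intro a b q h
    have hd : orderOf (f a * f b) ∣ q := orderOf_dvd_of_pow_eq_one h
    obtain ⟨k, rfl⟩ := hd
    have e : (cs0.simple a * cs0.simple b) ^ orderOf (f a * f b) = 1 :=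
      cs0.simple_mul_simple_pow a b
    rw [pow_mul, e, one_pow]
  have hgood := rel_imp_good f cs0.simple hinj hσ hsq hgen hdel hbraid
  have hinjφ : Function.Injective φ := by
    rw [injective_iff_map_eq_one]
    intro x hx
    obtain ⟨l, rfl⟩ := cs0.wordProd_surjective x
    have e : cs0.wordProd l = pr cs0.simple l := rfl
    rw [e] at hx ⊢
    rw [hφw] at hx
    exact hgood l hx
  have hsurjφ : Function.Surjective φ := by
    rw [← MonoidHom.range_eq_top, eq_top_iff, ← hgen, Subgroup.closure_le]
    rintro _ ⟨i, rfl⟩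
    exact ⟨cs0.simple i, hφs i⟩
  let e : M.Group ≃* W := MulEquiv.ofBijective φ ⟨hinjφ, hsurjφ⟩
  refine ⟨M, ⟨e.symm⟩, fun i => ?_⟩
  exact hφs i

end Wrapper

end Cfsg.Agent.Lib.Helper6.Cox
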