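import Mathlib
import Cfsg.Agent.Lib.Helper6.DE7

/-!
# Even `q` halves of statements on `PSL(2, q)` (helper6), part 1

* `card_Sk`: `|Sk k| = |k| (|k|^2 - 1)`;
* `proper_card_le`: a proper subgroup of `SL(2, F)` (`|F| = q ≥ 4` even) has order `≤ q (q - 1)`;
* `even_S0806`: minimal index `q + 1` for `q ≥ 4` even.
-/

set_option autoImplicit false
set_option linter.unusedSimpArgs false
set_option linter.unusedVariables false
set_option linter.unusedSectionVars false

namespace Cfsg.Agent.Lib.Helper6.DEven1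

open Matrix MatrixGroups Cfsg.Agent.Lib.Helper98.SL2Sub Cfsg.Agent.Lib.Helper98.ClassEq
  Cfsg.Agent.Lib.Helper6.DE1 Cfsg.Agent.Lib.Helper6.DE2 Cfsg.Agent.Lib.Helper6.DE3
  Cfsg.Agent.Lib.Helper6.DE4 Cfsg.Agent.Lib.Helper6.DE5 Cfsg.Agent.Lib.Helper6.DE6
  Cfsg.Agent.Lib.Helper6.DE7

variable {F : Type*} [Field F] [Fintype F]

omit [Fintype F] in
theorem map_inj (k : Subfield F) :
    Function.Injective (Matrix.SpecialLinearGroup.map (n := Fin 2) k.subtype) := by
  intro A B h
  apply Matrix.SpecialLinearGroup.ext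
  intro i j
  have h1 := congrArg (fun g : SL(2, F) => g.1 i j) h
  simp only [Cfsg.Agent.Lib.Helper98.SL2Field.map_entry] at h1
  exact Subtype.val_injective h1

/-- `Sk k` is a copy of `SL(2, k)` -/
noncomputable def SkEquiv (k : Subfield F) : SL(2, k) ≃* Sk k :=
  (MonoidHom.ofInjective (map_inj k)).trans
    (MulEquiv.subgroupCongr (by
      rw [Cfsg.Agent.Lib.Helper98.SL2Field.range_map, Subfield.fieldRange_subtype]))

theorem card_Sk (k : Subfield F) : Nat.card (Sk k) = Nat.card k * (Nat.card k ^ 2 - 1) := by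
  haveI := Fintype.ofFinite k
  rw [← Nat.card_congr (SkEquiv k).toEquiv, Cfsg.Agent.Lib.Helper38.SLCard.card_SL2,
    Nat.card_eq_fintype_card]

theorem card_map_conj {G : Type*} [Group G] (M : Subgroup G) (g : G) :
    Nat.card (M.map (MulAut.conj g).toMonoidHom) = Nat.card M :=
  (Nat.card_congr (Subgroup.equivMapOfInjective M _ (MulAut.conj g).injective).toEquiv).symm

/-- the degree of a proper subfield is at least two -/
theorem sq_card_le (k : Subfield F) (hk : k ≠ ⊤) : Nat.card k ^ 2 ≤ Fintype.card F := by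
  have hc : Nat.card F = Nat.card k ^ Module.finrank k F := Module.natCard_eq_pow_finrank
  rw [Nat.card_eq_fintype_card] at hc
  have hd2 : 2 ≤ Module.finrank k F := by
    by_contra hlt
    have h1 : Module.finrank k F = 1 := by
      have := Module.finrank_pos (R := k) (M := F)
      omega
    rw [h1, pow_one] at hc
    exact hk (subfield_top_of_card k hc.le)
  have hq0 : 2 ≤ Nat.card k := Cfsg.Agent.Lib.Helper98.SL2Field.card_subfield_two_le k
  rw [hc]
  exact Nat.pow_le_pow_right (by omega) hd2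

theorem proper_card_le [CharP F 2] (h4 : 4 ≤ Fintype.card F) (M : Subgroup SL(2, F))
    (hM : M ≠ ⊤) : Nat.card M ≤ Fintype.card F * (Fintype.card F - 1) := by
  obtain ⟨g, hg⟩ := subgroups M
  rw [← card_map_conj M g]
  rcases hg with h | ⟨t, ht, h⟩ | ⟨k, hk, h⟩
  · calc Nat.card (M.map (MulAut.conj g).toMonoidHom) ≤ Nat.card (Bor F) :=
          Subgroup.card_le_of_le h
      _ = _ := card_Bor
  · have h1 := Subgroup.card_le_of_le h
    rw [card_Ng_cm ht] at h1
    have h2 : Nat.card (Subgroup.centralizer ({cm t} : Set SL(2, F))) ≤ Fintype.card F + 1 := by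
      rcases card_cent_cm' ht with h | h <;> rw [h] <;> omega
    obtain ⟨m, hm⟩ : ∃ m, Fintype.card F = m + 4 := ⟨Fintype.card F - 4, by omega⟩
    rw [hm] at h2 ⊢
    have e : m + 4 - 1 = m + 3 := by omega
    rw [e]
    nlinarith
  · rw [h, card_Sk]
    have hk' : k ≠ ⊤ := by
      rintro rfl
      rw [Sk_top] at h
      exact hM (eq_top_of_map_conj g h)
    have hle := sq_card_le k hk'
    have hq0 : 2 ≤ Nat.card k := Cfsg.Agent.Lib.Helper98.SL2Field.card_subfield_two_le k
    calc Nat.card k * (Nat.card k ^ 2 - 1) ≤ Nat.card k ^ 2 * (Nat.card k ^ 2 - 1) :=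
          Nat.mul_le_mul_right _ (by nlinarith)
      _ ≤ Fintype.card F * (Fintype.card F - 1) :=
          Nat.mul_le_mul hle (Nat.sub_le_sub_right hle 1)

theorem four_le_of_even {q : ℕ} (hF : Fintype.card F = q) (heven : Even q) (hq : q ≠ 2) :
    4 ≤ Fintype.card F := by
  have h2 : 2 ≤ Fintype.card F := Fintype.one_lt_card
  obtain ⟨m, hm⟩ := heven
  omega

theorem card_psl [CharP F 2] :
    Nat.card (Matrix.ProjectiveSpecialLinearGroup (Fin 2) F) =
      (Fintype.card F + 1) * (Fintype.card F * (Fintype.card F - 1)) := by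
  rw [← Nat.card_congr (Cfsg.Agent.Lib.Helper42.SL2Even.slEquivPSL (F := F)).toEquiv,
    Cfsg.Agent.Lib.Helper42.SL2Even.card_SL2F]
  have hq : 1 ≤ Fintype.card F := Fintype.card_pos
  obtain ⟨m, hm⟩ : ∃ m, Fintype.card F = m + 1 := ⟨Fintype.card F - 1, by omega⟩
  rw [hm, Nat.add_sub_cancel]
  have e : (m + 1) ^ 2 - 1 = m * (m + 2) := by
    have : (m + 1) ^ 2 = m * (m + 2) + 1 := by ring
    rw [this, Nat.add_sub_cancel]
  rw [e]
  ring

/-- even half of S0806 -/
theorem even_S0806 {q : ℕ} (hF : Fintype.card F = q) (heven : Even q) (hq : q ≠ 2) :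
    (∀ H : Subgroup (Matrix.ProjectiveSpecialLinearGroup (Fin 2) F), H ≠ ⊤ → q + 1 ≤ H.index) ∧
    ∃ H : Subgroup (Matrix.ProjectiveSpecialLinearGroup (Fin 2) F), H.index = q + 1 := by
  have h4 := four_le_of_even hF heven hq
  subst hF
  haveI : CharP F 2 :=
    Cfsg.Agent.Lib.Helper42.SL2Even.charP_two_of_even (even_iff_two_dvd.1 heven)
  have hpos : 0 < Fintype.card F * (Fintype.card F - 1) :=
    Nat.mul_pos (by omega) (by omega)
  constructor
  · intro H hH
    have hM : H.map (Cfsg.Agent.Lib.Helper42.SL2Even.slEquivPSL (F := F)).symm.toMonoidHom ≠ ⊤ :=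
      fun h => hH ((map_eq_top_iff
        (Cfsg.Agent.Lib.Helper42.SL2Even.slEquivPSL (F := F)).symm.mapSubgroup).1 h)
    have hle := proper_card_le h4 _ hM
    rw [← Nat.card_congr (Subgroup.equivMapOfInjective H
      (Cfsg.Agent.Lib.Helper42.SL2Even.slEquivPSL (F := F)).symm.toMonoidHom
      (Cfsg.Agent.Lib.Helper42.SL2Even.slEquivPSL (F := F)).symm.injective).toEquiv] at hle
    have hidx := Subgroup.index_mul_card H
    rw [card_psl] at hidx
    have hHpos : 0 < Nat.card H := Nat.card_pos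
    by_contra hlt
    push_neg at hlt
    have h1 : H.index * Nat.card H ≤ Fintype.card F * (Fintype.card F * (Fintype.card F - 1)) :=
      Nat.mul_le_mul (by omega) hle
    rw [hidx] at h1
    nlinarith
  · refine ⟨(Bor F).map (Cfsg.Agent.Lib.Helper42.SL2Even.slEquivPSL (F := F)).toMonoidHom, ?_⟩
    have hidx := Subgroup.index_mul_card
      ((Bor F).map (Cfsg.Agent.Lib.Helper42.SL2Even.slEquivPSL (F := F)).toMonoidHom)
    rw [card_psl, ← Nat.card_congr (Subgroup.equivMapOfInjective (Bor F)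
      (Cfsg.Agent.Lib.Helper42.SL2Even.slEquivPSL (F := F)).toMonoidHom
      (Cfsg.Agent.Lib.Helper42.SL2Even.slEquivPSL (F := F)).injective).toEquiv, card_Bor] at hidx
    exact Nat.eq_of_mul_eq_mul_right hpos hidx

end Cfsg.Agent.Lib.Helper6.DEven1
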