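import Mathlib
import Cfsg.Agent.Lib.Helper6.DEven1
import Cfsg.Agent.Lib.Helper6.DE9

/-!
# Even `q` halves of statements on `PSL(2, q)` (helper6), part 2

* `coatom_nonsplit`, `coatom_split`: the normalisers of the tori are maximal subgroups of
  `SL(2, F)`, `|F| ≥ 4` even;
* `even_S0811`, `even_S0812`: maximal dihedral subgroups of orders `2 (q + 1)`, `2 (q - 1)`.
-/

set_option autoImplicit false
set_option linter.unusedSimpArgs false
set_option linter.unusedVariables false
set_option linter.unusedSectionVars false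

namespace Cfsg.Agent.Lib.Helper6.DEven2

open Matrix MatrixGroups Cfsg.Agent.Lib.Helper98.SL2Sub Cfsg.Agent.Lib.Helper98.ClassEq
  Cfsg.Agent.Lib.Helper6.DE1 Cfsg.Agent.Lib.Helper6.DE2 Cfsg.Agent.Lib.Helper6.DE3
  Cfsg.Agent.Lib.Helper6.DE4 Cfsg.Agent.Lib.Helper6.DE5 Cfsg.Agent.Lib.Helper6.DE6
  Cfsg.Agent.Lib.Helper6.DE7 Cfsg.Agent.Lib.Helper6.DE9 Cfsg.Agent.Lib.Helper6.DEven1

variable {F : Type*} [Field F] [Fintype F] [CharP F 2]

omit [Fintype F] in
/-- a non-split element is not conjugate into the upper triangular group -/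
theorem not_bor_nonsplit {t : F} (hns : ∀ r : F, r ^ 2 + t * r + 1 ≠ 0) (g : SL(2, F)) :
    g * cm t * g⁻¹ ∉ Bor F := by
  intro hx
  rw [mem_Bor] at hx
  have htr := DE1.trace_conj g (cm t)
  rw [cm00, cm11, zero_add] at htr
  have hd := detC (g * cm t * g⁻¹)
  rw [hx, mul_zero, add_zero] at hd
  apply hns ((g * cm t * g⁻¹).1 0 0)
  linear_combination (-((g * cm t * g⁻¹).1 0 0)) * htr + hd +
    ((g * cm t * g⁻¹).1 0 0 ^ 2 + 1) * (two0 (F := F))

theorem card_Ng_le {t : F} (ht : t ≠ 0) : Nat.card (Ng (cm t)) ≤ 2 * (Fintype.card F + 1) := by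
  rw [card_Ng_cm ht]
  rcases card_cent_cm' ht with h | h <;> rw [h] <;> omega

omit [CharP F 2] in
theorem card_dvd_card (k : Subfield F) : Nat.card k ∣ Fintype.card F := by
  have hc : Nat.card F = Nat.card k ^ Module.finrank k F := Module.natCard_eq_pow_finrank
  rw [Nat.card_eq_fintype_card] at hc
  rw [hc]
  exact dvd_pow_self _ Module.finrank_pos.ne'

theorem arith1 (Q q : ℕ) (hQ : 2 ≤ Q) (hle : Q ^ 2 ≤ q) (hQq : Q ∣ q)
    (h : 2 * (q + 1) ∣ Q * (Q ^ 2 - 1)) : False := by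
  have h1 : q + 1 ∣ (Q ^ 2 - 1) * Q := by
    rw [mul_comm]
    exact dvd_trans (dvd_mul_left _ _) h
  have hcop : Nat.Coprime (q + 1) q := by
    rw [Nat.coprime_self_add_left]
    exact Nat.coprime_one_left q
  have hcop' : Nat.Coprime (q + 1) Q := Nat.Coprime.coprime_dvd_right hQq hcop
  have h2 : q + 1 ∣ Q ^ 2 - 1 := Nat.Coprime.dvd_of_dvd_mul_right hcop' h1
  have h4 : 4 ≤ Q ^ 2 := by nlinarith
  have h3 : q + 1 ≤ Q ^ 2 - 1 := Nat.le_of_dvd (by omega) h2
  omega

omit [Fintype F] [CharP F 2] in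
theorem card_three_le [Finite F] (k : Subfield F) (hk : ∃ b ∈ k, b ≠ 0 ∧ b ≠ 1) :
    3 ≤ Nat.card k := by
  obtain ⟨b, hbk, hb0, hb1⟩ := hk
  have hk2 : Nat.card k ≠ 2 := by
    intro h2
    obtain ⟨y, -, hy⟩ := (Nat.card_eq_two_iff' (0 : k)).1 h2
    have e1 : (⟨b, hbk⟩ : k) = y := hy _ (fun h => hb0 (congrArg Subtype.val h))
    have e2 : (1 : k) = y := hy _ one_ne_zero
    exact hb1 (congrArg Subtype.val (e1.trans e2.symm))
  have := Cfsg.Agent.Lib.Helper98.SL2Field.card_subfield_two_le k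
  omega

/-- the normaliser of a non-split torus is a maximal subgroup -/
theorem coatom_nonsplit (h4 : 4 ≤ Fintype.card F) {t : F}
    (hns : ∀ r : F, r ^ 2 + t * r + 1 ≠ 0) : IsCoatom (Ng (cm t)) := by
  have ht : t ≠ 0 := by
    intro h
    apply hns 1
    rw [h]
    linear_combination (two0 (F := F))
  refine ⟨Ng_ne_top h4 ht, fun M hlt => ?_⟩
  by_contra hM
  have hcardN : Nat.card (Ng (cm t)) = 2 * (Fintype.card F + 1) := by
    rw [card_Ng_cm ht, card_cent_nonsplit t hns]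
  have hcN : cm t ∈ Ng (cm t) := by
    left
    rw [mul_inv_cancel_right]
  obtain ⟨g, hg⟩ := subgroups M
  have hcm : g * cm t * g⁻¹ ∈ M.map (MulAut.conj g).toMonoidHom :=
    conj_mem_conj _ g _ (hlt.le hcN)
  rcases hg with h | ⟨t', ht', h⟩ | ⟨k, hk, h⟩
  · exact not_bor_nonsplit hns g (h hcm)
  · have h1 : Nat.card M ≤ 2 * (Fintype.card F + 1) := by
      rw [← card_map_conj M g]
      exact (Subgroup.card_le_of_le h).trans (card_Ng_le ht')
    have h2 : Ng (cm t) = M := Subgroup.eq_of_le_of_card_ge hlt.le (by rw [hcardN]; exact h1)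
    exact hlt.ne h2
  · have hk' : k ≠ ⊤ := by
      rintro rfl
      rw [Sk_top] at h
      exact hM (eq_top_of_map_conj g h)
    have hdvd : Nat.card (Ng (cm t)) ∣ Nat.card M := Subgroup.card_dvd_of_le hlt.le
    rw [hcardN, ← card_map_conj M g, h, card_Sk] at hdvd
    exact arith1 (Nat.card k) (Fintype.card F)
      (Cfsg.Agent.Lib.Helper98.SL2Field.card_subfield_two_le k) (sq_card_le k hk')
      (card_dvd_card k) hdvd

omit [Fintype F] in
/-- elements of the centraliser of `cm t` with the same trace are equal or inverse -/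
theorem cent_trace_eq {t : F} (ht : t ≠ 0) {x x' : SL(2, F)} (hx : x * cm t = cm t * x)
    (hx' : x' * cm t = cm t * x') (htr : x.1 0 0 + x.1 1 1 = x'.1 0 0 + x'.1 1 1) :
    x' = x ∨ x' = x⁻¹ := by
  obtain ⟨h1, h2⟩ := (comm_cm_iff t x).1 hx
  obtain ⟨h1', h2'⟩ := (comm_cm_iff t x').1 hx'
  have hβ : x'.1 1 0 = x.1 1 0 := by
    have h3 : t * (x'.1 1 0 - x.1 1 0) = 0 := by
      linear_combination (-1 : F) * htr + h2 - h2' + (x.1 0 0 - x'.1 0 0) * (two0 (F := F))
    exact sub_eq_zero.1 ((mul_eq_zero.1 h3).resolve_left ht)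
  have hd := detC x
  have hd' := detC x'
  rw [h1, h2] at hd
  rw [h1', h2', hβ] at hd'
  have h4 : (x.1 0 0 - x'.1 0 0) * (x.1 0 0 + x'.1 0 0 + t * x.1 1 0) = 0 := by
    linear_combination hd - hd'
  rcases mul_eq_zero.1 h4 with h5 | h5
  · left
    have h6 : x'.1 0 0 = x.1 0 0 := (sub_eq_zero.1 h5).symm
    apply sl2_ext
    · exact h6
    · rw [h1', hβ, h1]
    · exact hβ
    · rw [h2', h2, h6, hβ]
  · right
    have h6 : x'.1 0 0 = x.1 1 1 := by
      rw [h2]
      linear_combination (-1 : F) * h5 + x'.1 0 0 * (two0 (F := F))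
    apply sl2_ext
    · rw [inv00]
      exact h6
    · rw [inv01, h1', hβ, h1, negE]
    · rw [inv10, hβ, negE]
    · rw [inv11, h2', h6, hβ, h2]
      linear_combination (t * x.1 1 0) * (two0 (F := F))

theorem card_cent_le {t : F} (ht : t ≠ 0) (k : Subfield F)
    (h : ∀ x : SL(2, F), x * cm t = cm t * x → x.1 0 0 + x.1 1 1 ∈ k) :
    Nat.card (Subgroup.centralizer ({cm t} : Set SL(2, F))) ≤ 2 * Nat.card k := by
  classical
  haveI : Fintype (Subgroup.centralizer ({cm t} : Set SL(2, F))) := Fintype.ofFinite _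
  haveI : Fintype k := Fintype.ofFinite _
  let f : Subgroup.centralizer ({cm t} : Set SL(2, F)) → k := fun x =>
    ⟨x.1.1 0 0 + x.1.1 1 1, h x.1 (Subgroup.mem_centralizer_singleton_iff.1 x.2)⟩
  have hfib : ∀ a ∈ (Finset.univ : Finset (Subgroup.centralizer ({cm t} : Set SL(2, F)))).image f,
      ((Finset.univ : Finset (Subgroup.centralizer ({cm t} : Set SL(2, F)))).filter
        (fun x => f x = a)).card ≤ 2 := by
    intro a ha
    obtain ⟨x₀, -, rfl⟩ := Finset.mem_image.1 ha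
    have hsub : ((Finset.univ : Finset (Subgroup.centralizer ({cm t} : Set SL(2, F)))).filter
        (fun x => f x = f x₀)) ⊆ {x₀, x₀⁻¹} := by
      intro x hx
      rw [Finset.mem_filter] at hx
      have htr : x₀.1.1 0 0 + x₀.1.1 1 1 = x.1.1 0 0 + x.1.1 1 1 :=
        (congrArg Subtype.val hx.2).symm
      rcases cent_trace_eq ht (Subgroup.mem_centralizer_singleton_iff.1 x₀.2)
        (Subgroup.mem_centralizer_singleton_iff.1 x.2) htr with h1 | h1
      · rw [Finset.mem_insert]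
        left
        exact Subtype.ext h1
      · rw [Finset.mem_insert, Finset.mem_singleton]
        right
        exact Subtype.ext h1
    exact (Finset.card_le_card hsub).trans Finset.card_le_two
  have h1 := Finset.card_le_mul_card_image
    (Finset.univ : Finset (Subgroup.centralizer ({cm t} : Set SL(2, F)))) 2 hfib
  rw [Finset.card_univ] at h1
  have h2 : ((Finset.univ : Finset (Subgroup.centralizer ({cm t} : Set SL(2, F)))).image f).card ≤
      Fintype.card k := Finset.card_le_univ _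
  rw [Nat.card_eq_fintype_card, Nat.card_eq_fintype_card]
  calc Fintype.card (Subgroup.centralizer ({cm t} : Set SL(2, F)))
      ≤ 2 * ((Finset.univ : Finset (Subgroup.centralizer ({cm t} : Set SL(2, F)))).image f).card := h1
    _ ≤ 2 * Fintype.card k := Nat.mul_le_mul_left _ h2

/-- the normaliser of a split torus is a maximal subgroup -/
theorem coatom_split (h4 : 4 ≤ Fintype.card F) {t : F} (ht : t ≠ 0) (r : F)
    (hr : r ^ 2 + t * r + 1 = 0) : IsCoatom (Ng (cm t)) := by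
  refine ⟨Ng_ne_top h4 ht, fun M hlt => ?_⟩
  by_contra hM
  have hcardN : Nat.card (Ng (cm t)) = 2 * (Fintype.card F - 1) := by
    rw [card_Ng_cm ht, card_cent_split t ht r hr]
  have hcN : cm t ∈ Ng (cm t) := by
    left
    rw [mul_inv_cancel_right]
  obtain ⟨g, hg⟩ := subgroups M
  have hcm : g * cm t * g⁻¹ ∈ M.map (MulAut.conj g).toMonoidHom :=
    conj_mem_conj _ g _ (hlt.le hcN)
  have hlm : g * l t * g⁻¹ ∈ M.map (MulAut.conj g).toMonoidHom :=
    conj_mem_conj _ g _ (hlt.le (l_mem_Ng t))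
  have hdvd : Nat.card (Ng (cm t)) ∣ Nat.card M := Subgroup.card_dvd_of_le hlt.le
  rcases hg with h | ⟨t', ht', h⟩ | ⟨k, hk, h⟩
  · have h1 := h hcm
    have h2 := h hlm
    rw [mem_Bor] at h1 h2
    simp only [mul00, mul01, mul10, mul11, inv00, inv01, inv10, inv11, l00, l01, l10,
      l11] at h2
    have h3 : g.1 1 1 * g.1 1 1 * t = 0 := by linear_combination h2
    have h4' : g.1 1 1 = 0 := by
      rcases mul_eq_zero.1 h3 with h5 | h5
      · exact mul_self_eq_zero.1 h5
      · exact absurd h5 ht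
    simp only [mul00, mul01, mul10, mul11, inv00, inv01, inv10, inv11, cm00, cm01, cm10,
      cm11, h4'] at h1
    have h5 : g.1 1 0 * g.1 1 0 = 0 := by linear_combination (-1 : F) * h1
    have h6 : g.1 1 0 = 0 := mul_self_eq_zero.1 h5
    have hd := detC g
    rw [h4', h6, mul_zero, mul_zero, add_zero] at hd
    exact zero_ne_one hd
  · have h1 : Nat.card M ≤ 2 * (Fintype.card F + 1) := by
      rw [← card_map_conj M g]
      exact (Subgroup.card_le_of_le h).trans (card_Ng_le ht')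
    have h2 : Nat.card M ≠ Nat.card (Ng (cm t)) := by
      intro heq
      exact hlt.ne (Subgroup.eq_of_le_of_card_ge hlt.le heq.le)
    rw [hcardN] at hdvd h2
    obtain ⟨c, hc⟩ := hdvd
    have hMpos : 0 < Nat.card M := Nat.card_pos
    have hc2 : 2 ≤ c := by
      by_contra hlt2
      have hc01 : c = 0 ∨ c = 1 := by omega
      rcases hc01 with rfl | rfl
      · rw [mul_zero] at hc
        omega
      · rw [mul_one] at hc
        exact h2 hc
    have h5 : 2 * (2 * (Fintype.card F - 1)) ≤ Nat.card M := by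
      rw [hc, mul_comm 2 (2 * (Fintype.card F - 1))]
      exact Nat.mul_le_mul_left _ hc2
    omega
  · have hk' : k ≠ ⊤ := by
      rintro rfl
      rw [Sk_top] at h
      exact hM (eq_top_of_map_conj g h)
    have htrk : ∀ x : SL(2, F), x * cm t = cm t * x → x.1 0 0 + x.1 1 1 ∈ k := by
      intro x hx
      have hxN : x ∈ Ng (cm t) :=
        centralizer_le_Ng _ (Subgroup.mem_centralizer_singleton_iff.2 hx)
      have hxm : g * x * g⁻¹ ∈ M.map (MulAut.conj g).toMonoidHom :=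
        conj_mem_conj _ g _ (hlt.le hxN)
      rw [h] at hxm
      rw [← DE1.trace_conj g x]
      exact k.add_mem hxm.1 hxm.2.2.2
    have h1 := card_cent_le ht k htrk
    rw [card_cent_split t ht r hr] at h1
    have h2 := sq_card_le k hk'
    have h3 := card_three_le k hk
    have h5 : Fintype.card F ≤ 2 * Nat.card k + 1 := by omega
    have h6 : 3 * Nat.card k ≤ Nat.card k ^ 2 := by nlinarith
    omega

omit [CharP F 2] in
theorem gcd_eq_one {q : ℕ} (hF : Fintype.card F = q) (heven : Even q) :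
    Nat.gcd 2 (q - 1) = 1 := by
  have h1 : 1 ≤ q := by
    rw [← hF]
    exact Fintype.card_pos
  exact Nat.coprime_two_left.2 (Nat.Even.sub_odd h1 heven odd_one)

end Cfsg.Agent.Lib.Helper6.DEven2

namespace Cfsg.Agent.Lib.Helper6.DEven2

open Matrix MatrixGroups Cfsg.Agent.Lib.Helper98.SL2Sub Cfsg.Agent.Lib.Helper98.ClassEq
  Cfsg.Agent.Lib.Helper6.DE1 Cfsg.Agent.Lib.Helper6.DE2 Cfsg.Agent.Lib.Helper6.DE3
  Cfsg.Agent.Lib.Helper6.DE4 Cfsg.Agent.Lib.Helper6.DE5 Cfsg.Agent.Lib.Helper6.DE6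
  Cfsg.Agent.Lib.Helper6.DE7 Cfsg.Agent.Lib.Helper6.DE9 Cfsg.Agent.Lib.Helper6.DEven1

variable {F : Type*} [Field F] [Fintype F]

/-- even half of S0811 -/
theorem even_S0811 {q : ℕ} (hF : Fintype.card F = q) (heven : Even q) (hq : q ≠ 2) :
    ∃ H : Subgroup (Matrix.ProjectiveSpecialLinearGroup (Fin 2) F), IsCoatom H ∧
      Nonempty (H ≃* DihedralGroup ((q + 1) / Nat.gcd 2 (q - 1))) := by
  have h4 := four_le_of_even hF heven hq
  rw [gcd_eq_one hF heven, Nat.div_one]
  subst hF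
  haveI : CharP F 2 :=
    Cfsg.Agent.Lib.Helper42.SL2Even.charP_two_of_even (even_iff_two_dvd.1 heven)
  obtain ⟨t, ht, hns⟩ := Cfsg.Agent.Lib.Helper42.SL2Even.exists_nonsplit (F := F)
  have hco := coatom_nonsplit h4 hns
  obtain ⟨φ⟩ := dihedral_Ng ht _ (card_cent_nonsplit t hns)
  refine ⟨(Ng (cm t)).map (Cfsg.Agent.Lib.Helper42.SL2Even.slEquivPSL (F := F)).toMonoidHom,
    (OrderIso.isCoatom_iff (Cfsg.Agent.Lib.Helper42.SL2Even.slEquivPSL (F := F)).mapSubgroup _).2
      hco, ⟨(Subgroup.equivMapOfInjective (Ng (cm t))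
        (Cfsg.Agent.Lib.Helper42.SL2Even.slEquivPSL (F := F)).toMonoidHom
        (Cfsg.Agent.Lib.Helper42.SL2Even.slEquivPSL (F := F)).injective).symm.trans φ⟩⟩

/-- even half of S0812 -/
theorem even_S0812 {q : ℕ} (hF : Fintype.card F = q) (heven : Even q) (hq : q ≠ 2) :
    ∃ H : Subgroup (Matrix.ProjectiveSpecialLinearGroup (Fin 2) F), IsCoatom H ∧
      Nonempty (H ≃* DihedralGroup ((q - 1) / Nat.gcd 2 (q - 1))) := by
  have h4 := four_le_of_even hF heven hq
  rw [gcd_eq_one hF heven, Nat.div_one]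
  subst hF
  haveI : CharP F 2 :=
    Cfsg.Agent.Lib.Helper42.SL2Even.charP_two_of_even (even_iff_two_dvd.1 heven)
  obtain ⟨r, hr0, hr1⟩ := exists_ne h4
  have hrr : r + r⁻¹ ≠ 0 := by
    intro h
    apply hr1
    apply eq_one_of_sq
    have h1 : r * (r + r⁻¹) = 0 := by rw [h, mul_zero]
    rw [mul_add, mul_inv_cancel₀ hr0] at h1
    linear_combination h1 - two0 (F := F)
  have hroot : r ^ 2 + (r + r⁻¹) * r + 1 = 0 := by
    have h1 : r⁻¹ * r = 1 := inv_mul_cancel₀ hr0
    linear_combination h1 + (r ^ 2 + 1) * two0 (F := F)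
  have hco := coatom_split h4 hrr r hroot
  obtain ⟨φ⟩ := dihedral_Ng hrr _ (card_cent_split _ hrr r hroot)
  refine ⟨(Ng (cm (r + r⁻¹))).map
      (Cfsg.Agent.Lib.Helper42.SL2Even.slEquivPSL (F := F)).toMonoidHom,
    (OrderIso.isCoatom_iff (Cfsg.Agent.Lib.Helper42.SL2Even.slEquivPSL (F := F)).mapSubgroup _).2
      hco, ⟨(Subgroup.equivMapOfInjective (Ng (cm (r + r⁻¹)))
        (Cfsg.Agent.Lib.Helper42.SL2Even.slEquivPSL (F := F)).toMonoidHom
        (Cfsg.Agent.Lib.Helper42.SL2Even.slEquivPSL (F := F)).injective).symm.trans φ⟩⟩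

end Cfsg.Agent.Lib.Helper6.DEven2
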