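import Mathlib
import Cfsg.Prelude.Def_CaseTheorems
import Cfsg.Agent.Lib.Helper6.DEven2

/-!
# Even `q` halves of statements on `PSL(2, q)` (helper6), part 3

* `even_S0810`: `PSL(2, q)`, `q` even, is minimal simple iff `q = 2 ^ r` with `r` prime.
-/

set_option autoImplicit false
set_option linter.unusedSimpArgs false
set_option linter.unusedVariables false
set_option linter.unusedSectionVars false

namespace Cfsg.Agent.Lib.Helper6.DEven3

open Matrix MatrixGroups Cfsg.Agent.Lib.Helper98.SL2Sub Cfsg.Agent.Lib.Helper98.ClassEq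
  Cfsg.Agent.Lib.Helper6.DE1 Cfsg.Agent.Lib.Helper6.DE2 Cfsg.Agent.Lib.Helper6.DE3
  Cfsg.Agent.Lib.Helper6.DE4 Cfsg.Agent.Lib.Helper6.DE5 Cfsg.Agent.Lib.Helper6.DE6
  Cfsg.Agent.Lib.Helper6.DE7 Cfsg.Agent.Lib.Helper6.DE9 Cfsg.Agent.Lib.Helper6.DEven1
  Cfsg.Agent.Lib.Helper6.DEven2

variable {F : Type*} [Field F] [Fintype F]

/-- a non-prime degree gives a proper intermediate field -/
theorem exists_intermediate_alg {K : Type*} [Field K] [Algebra K F]
    (hd : ¬ (Module.finrank K F).Prime) (hd1 : Module.finrank K F ≠ 1) :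
    ∃ E : IntermediateField K F, E ≠ ⊥ ∧ E ≠ ⊤ := by
  set d := Module.finrank K F with hdd
  have hd0 : 0 < d := Module.finrank_pos
  have hpp : d.minFac.Prime := Nat.minFac_prime hd1
  haveI : Fact d.minFac.Prime := ⟨hpp⟩
  have hpd : d.minFac ∣ d := Nat.minFac_dvd d
  have hcard : Nat.card (F ≃ₐ[K] F) = d := IsGalois.card_aut_eq_finrank K F
  obtain ⟨σ, hσ⟩ := exists_prime_orderOf_dvd_card' (G := F ≃ₐ[K] F) d.minFac
    (by rw [hcard]; exact hpd)
  let H : Subgroup (F ≃ₐ[K] F) := Subgroup.zpowers σ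
  have hH : Nat.card H = d.minFac := by
    rw [Nat.card_zpowers, hσ]
  let E : IntermediateField K F := IntermediateField.fixedField H
  have h1 : Module.finrank E F = d.minFac := by
    rw [IntermediateField.finrank_fixedField_eq_card, hH]
  have h2 : Module.finrank K E * Module.finrank E F = d := Module.finrank_mul_finrank K E F
  refine ⟨E, ?_, ?_⟩
  · intro hE
    have h3 : Module.finrank K E = 1 := IntermediateField.finrank_eq_one_iff.2 hE
    rw [h3, one_mul, h1] at h2
    rw [← h2] at hd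
    exact hd hpp
  · intro hE
    have h3 : Module.finrank E F = 1 := IntermediateField.finrank_eq_one_iff_eq_top.2 hE
    rw [h3] at h1
    exact hpp.one_lt.ne' h1.symm

/-- a proper subfield with more than two elements, when the degree over the prime field is
composite -/
theorem exists_subfield [CharP F 2] {n : ℕ} (hn : Fintype.card F = 2 ^ n) (hnp : ¬ n.Prime)
    (hn1 : n ≠ 1) : ∃ k : Subfield F, (∃ b ∈ k, b ≠ 0 ∧ b ≠ 1) ∧ ∃ y : F, y ∉ k := by
  letI : Algebra (ZMod 2) F := ZMod.algebra F 2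
  have h1 := FiniteField.pow_finrank_eq_natCard 2 F
  rw [Nat.card_eq_fintype_card, hn] at h1
  have hfin : Module.finrank (ZMod 2) F = n := Nat.pow_right_injective (le_refl 2) h1
  obtain ⟨E, hE0, hE1⟩ := exists_intermediate_alg (K := ZMod 2) (F := F)
    (by rw [hfin]; exact hnp) (by rw [hfin]; exact hn1)
  refine ⟨E.toSubfield, ?_, ?_⟩
  · have h2 : ¬ (E ≤ ⊥) := fun h => hE0 (le_antisymm h bot_le)
    obtain ⟨b, hbE, hb⟩ := SetLike.not_le_iff_exists.1 h2
    rw [IntermediateField.mem_bot] at hb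
    refine ⟨b, hbE, ?_, ?_⟩
    · rintro rfl
      exact hb ⟨0, map_zero _⟩
    · rintro rfl
      exact hb ⟨1, map_one _⟩
  · by_contra hcon
    push_neg at hcon
    apply hE1
    rw [eq_top_iff]
    intro x _
    exact hcon x

theorem solvable_of_mulEquiv {G G' : Type*} [Group G] [Group G'] (φ : G ≃* G')
    (h : Group.IsSolvable G') : Group.IsSolvable G :=
  Group.isSolvable_of_isSolvable_injective (f := φ.toMonoidHom) φ.injective

/-- `Sk k` is not solvable when `k` has more than two elements -/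
theorem not_solvable_Sk [CharP F 2] (k : Subfield F) (hk : ∃ b ∈ k, b ≠ 0 ∧ b ≠ 1) :
    ¬ Group.IsSolvable (Sk k) := by
  intro hs
  haveI : Fintype k := Fintype.ofFinite k
  have h3 := card_three_le k hk
  obtain ⟨N, -, hN⟩ := FiniteField.card F 2
  have hdvd : Nat.card k ∣ 2 ^ (N : ℕ) := by
    rw [← hN]
    exact card_dvd_card k
  obtain ⟨j, -, hj⟩ := (Nat.dvd_prime_pow Nat.prime_two).1 hdvd
  have h4 : 4 ≤ Fintype.card k := by
    rw [← Nat.card_eq_fintype_card, hj]
    rw [hj] at h3
    have hj2 : 2 ≤ j := by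
      by_contra hlt
      have : j = 0 ∨ j = 1 := by omega
      rcases this with rfl | rfl <;> norm_num at h3
    calc 4 = 2 ^ 2 := by norm_num
      _ ≤ 2 ^ j := Nat.pow_le_pow_right (by norm_num) hj2
  exact not_solvable (F := k) h4 (solvable_of_mulEquiv (SkEquiv k) hs)

/-- `SL(2, F)` is solvable for the field with two elements -/
theorem solvable_two [CharP F 2] (h2 : Fintype.card F = 2) : Group.IsSolvable SL(2, F) := by
  have hall : ∀ b : F, b ≠ 0 → b = 1 := by
    intro b hb
    have h2' : Nat.card F = 2 := by rw [Nat.card_eq_fintype_card, h2]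
    obtain ⟨y, -, hy⟩ := (Nat.card_eq_two_iff' (0 : F)).1 h2'
    rw [hy b hb, hy 1 one_ne_zero]
  obtain ⟨g, hg⟩ := subgroups (⊤ : Subgroup SL(2, F))
  have hs : Group.IsSolvable (⊤ : Subgroup SL(2, F)) := by
    rcases hg with h | ⟨t, ht, h⟩ | ⟨k, ⟨b, hbk, hb0, hb1⟩, h⟩
    · exact solvable_of_conj_le g h solvable_Bor
    · exact solvable_of_conj_le g h (solvable_Ng (cm_ne_one t))
    · exact absurd (hall b hb0) hb1
  exact solvable_of_mulEquiv (Subgroup.topEquiv (G := SL(2, F))).symm hs

/-- even half of S0810 -/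
theorem even_S0810 {q : ℕ} (hF : Fintype.card F = q) (heven : Even q) :
    Cfsg.IsMinimalSimple (Matrix.ProjectiveSpecialLinearGroup (Fin 2) F) ↔
      ((∃ r : ℕ, r.Prime ∧ q = 2 ^ r) ∨ (∃ r : ℕ, r.Prime ∧ r ≠ 2 ∧ q = 3 ^ r) ∨
        (q.Prime ∧ 5 < q ∧ (q % 5 = 2 ∨ q % 5 = 3)) ∨ q = 5) := by
  subst hF
  haveI : CharP F 2 :=
    Cfsg.Agent.Lib.Helper42.SL2Even.charP_two_of_even (even_iff_two_dvd.1 heven)
  constructor
  · rintro ⟨hsimple, hnc, hsol⟩
    left
    obtain ⟨n, -, hn⟩ := FiniteField.card F 2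
    refine ⟨n, ?_, hn⟩
    by_contra hnp
    by_cases hn1 : (n : ℕ) = 1
    · rw [hn1, pow_one] at hn
      have hs := solvable_two hn
      have hs' : Group.IsSolvable (Matrix.ProjectiveSpecialLinearGroup (Fin 2) F) :=
        solvable_of_mulEquiv (Cfsg.Agent.Lib.Helper42.SL2Even.slEquivPSL (F := F)).symm hs
      exact hnc (isMulCommutative_iff.mpr (IsSimpleGroup.comm_iff_isSolvable.2 hs'))
    · obtain ⟨k, hk, y, hy⟩ := exists_subfield hn hnp hn1
      have hne : Sk k ≠ ⊤ := Sk_ne_top k y hy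
      have hne' : (Sk k).map (Cfsg.Agent.Lib.Helper42.SL2Even.slEquivPSL (F := F)).toMonoidHom
          ≠ ⊤ :=
        fun h => hne ((map_eq_top_iff
          (Cfsg.Agent.Lib.Helper42.SL2Even.slEquivPSL (F := F)).mapSubgroup).1 h)
      have hs := hsol _ hne'
      exact not_solvable_Sk k hk (solvable_of_mulEquiv (Subgroup.equivMapOfInjective (Sk k)
        (Cfsg.Agent.Lib.Helper42.SL2Even.slEquivPSL (F := F)).toMonoidHom
        (Cfsg.Agent.Lib.Helper42.SL2Even.slEquivPSL (F := F)).injective) hs)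
  · rintro (⟨r, hr, hq⟩ | ⟨r, hr, hr2, hq⟩ | ⟨hqp, h5, -⟩ | hq)
    · have h4 : 4 ≤ Fintype.card F := four_le hr hq
      refine ⟨?_, ?_, ?_⟩
      · exact Matrix.ProjectiveSpecialLinearGroup.rank_two_simple
          (by rw [Nat.card_eq_fintype_card]; exact h4)
      · intro hc
        apply not_solvable h4
        have hs : Group.IsSolvable (Matrix.ProjectiveSpecialLinearGroup (Fin 2) F) :=
          Group.isSolvable_of_comm (isMulCommutative_iff.mp hc)
        exact solvable_of_mulEquiv (Cfsg.Agent.Lib.Helper42.SL2Even.slEquivPSL (F := F)) hs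
      · intro H hH
        have hM : H.map (Cfsg.Agent.Lib.Helper42.SL2Even.slEquivPSL (F := F)).symm.toMonoidHom
            ≠ ⊤ :=
          fun h => hH ((map_eq_top_iff
            (Cfsg.Agent.Lib.Helper42.SL2Even.slEquivPSL (F := F)).symm.mapSubgroup).1 h)
        obtain ⟨g, hg⟩ := proper_cases hr hq _ hM
        have hs : Group.IsSolvable
            (H.map (Cfsg.Agent.Lib.Helper42.SL2Even.slEquivPSL (F := F)).symm.toMonoidHom) := by
          rcases hg with h | ⟨t, ht, h⟩
          · exact solvable_of_conj_le g h solvable_Bor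
          · exact solvable_of_conj_le g h (solvable_Ng (cm_ne_one t))
        exact solvable_of_mulEquiv (Subgroup.equivMapOfInjective H
          (Cfsg.Agent.Lib.Helper42.SL2Even.slEquivPSL (F := F)).symm.toMonoidHom
          (Cfsg.Agent.Lib.Helper42.SL2Even.slEquivPSL (F := F)).symm.injective) hs
    · exfalso
      rw [hq] at heven
      have hodd : Odd (3 ^ r) := Odd.pow (by decide)
      exact (Nat.not_even_iff_odd.2 hodd) heven
    · exfalso
      have h2 : Fintype.card F = 2 := (Nat.Prime.even_iff hqp).1 heven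
      omega
    · exfalso
      rw [hq] at heven
      exact absurd heven (by decide)

end Cfsg.Agent.Lib.Helper6.DEven3
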