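import Mathlib
import Cfsg.Agent.Lib.Helper6.DEven3

/-!
# Even `q` halves of statements on `PSL(2, q)` (helper6), part 4

* `even_S0799`: Dickson's list of the subgroups of `PSL(2, q)`, `q` even.
-/

set_option autoImplicit false
set_option linter.unusedSimpArgs false
set_option linter.unusedVariables false
set_option linter.unusedSectionVars false

namespace Cfsg.Agent.Lib.Helper6.DEven4

open Matrix MatrixGroups Cfsg.Agent.Lib.Helper98.SL2Sub Cfsg.Agent.Lib.Helper98.ClassEq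
  Cfsg.Agent.Lib.Helper6.DE1 Cfsg.Agent.Lib.Helper6.DE2 Cfsg.Agent.Lib.Helper6.DE3
  Cfsg.Agent.Lib.Helper6.DE4 Cfsg.Agent.Lib.Helper6.DE5 Cfsg.Agent.Lib.Helper6.DE6
  Cfsg.Agent.Lib.Helper6.DE7 Cfsg.Agent.Lib.Helper6.DE8 Cfsg.Agent.Lib.Helper6.DE9
  Cfsg.Agent.Lib.Helper6.DEven1 Cfsg.Agent.Lib.Helper6.DEven2 Cfsg.Agent.Lib.Helper6.DEven3

variable {F : Type*} [Field F] [Fintype F] [CharP F 2]

theorem card_cent_u :
    Nat.card (Subgroup.centralizer ({u (1 : F)} : Set SL(2, F))) = Fintype.card F := by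
  have h := Cfsg.Agent.Lib.Helper42.SL2Even.card_centralizer (u (1 : F))
    (u_ne_one one_ne_zero)
  have h00 : (u (1 : F)) 0 0 + (u (1 : F)) 1 1 = 0 := by
    show (u (1 : F)).1 0 0 + (u (1 : F)).1 1 1 = 0
    rw [u00, u11]
    exact addS 1
  rw [h00] at h
  rw [h]
  exact Cfsg.Agent.Lib.Helper42.SL2Even.card_sol_zero

omit [Fintype F] in
theorem Bor_le_normalizer :
    Bor F ≤ Subgroup.normalizer
      ((Subgroup.centralizer ({u (1 : F)} : Set SL(2, F)) : Subgroup SL(2, F)) : Set SL(2, F)) := by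
  intro g hg
  rw [mem_Bor] at hg
  rw [Subgroup.mem_normalizer_iff]
  intro h
  constructor
  · intro hh
    rw [Subgroup.mem_centralizer_singleton_iff] at hh ⊢
    rw [cent_u one_ne_zero hh, conj_u_of_upper hg, u_mul, u_mul, add_comm]
  · intro hh
    rw [Subgroup.mem_centralizer_singleton_iff] at hh ⊢
    have hgi : (g⁻¹).1 1 0 = 0 := by rw [inv10, hg, neg_zero]
    have e : h = g⁻¹ * (g * h * g⁻¹) * g⁻¹⁻¹ := by group
    rw [e, cent_u one_ne_zero hh, conj_u_of_upper hgi, u_mul, u_mul, add_comm]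

/-- the subgroups of `Ng (cm t)` are cyclic or dihedral -/
theorem sub_Ng {t : F} (ht : t ≠ 0) (M : Subgroup SL(2, F)) (hM : M ≤ Ng (cm t)) :
    ∃ k : ℕ, k ∣ Nat.card (Subgroup.centralizer ({cm t} : Set SL(2, F))) ∧
      ((IsCyclic M ∧ Nat.card M = k) ∨ Nonempty (M ≃* DihedralGroup k)) := by
  haveI hcyc := isCyclic_cent_cm (F := F) ht
  by_cases hMC : M ≤ Subgroup.centralizer ({cm t} : Set SL(2, F))
  · refine ⟨Nat.card M, Subgroup.card_dvd_of_le hMC, Or.inl ⟨?_, rfl⟩⟩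
    exact isCyclic_of_surjective (Subgroup.subgroupOfEquivOfLe hMC)
      (Subgroup.subgroupOfEquivOfLe hMC).surjective
  · obtain ⟨b, hbM, hbC⟩ := SetLike.not_le_iff_exists.1 hMC
    have hbc : ¬ (b * cm t = cm t * b) := fun h =>
      hbC (Subgroup.mem_centralizer_singleton_iff.2 h)
    obtain ⟨hbb, hbinv⟩ := Ng_cm_outer (hM hbM) hbc
    have hle : M ⊓ Subgroup.centralizer ({cm t} : Set SL(2, F)) ≤
        Subgroup.centralizer ({cm t} : Set SL(2, F)) := inf_le_right
    haveI : IsCyclic (M ⊓ Subgroup.centralizer ({cm t} : Set SL(2, F)) : Subgroup SL(2, F)) :=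
      isCyclic_of_surjective (Subgroup.subgroupOfEquivOfLe hle)
        (Subgroup.subgroupOfEquivOfLe hle).surjective
    obtain ⟨a₀, hgen⟩ := IsCyclic.exists_generator
      (α := (M ⊓ Subgroup.centralizer ({cm t} : Set SL(2, F)) : Subgroup SL(2, F)))
    obtain ⟨a, ha₀⟩ : ∃ a : SL(2, F), a = (a₀ : SL(2, F)) := ⟨_, rfl⟩
    have haM : a ∈ M := by rw [ha₀]; exact a₀.2.1
    have haC : a ∈ Subgroup.centralizer ({cm t} : Set SL(2, F)) := by rw [ha₀]; exact a₀.2.2
    obtain ⟨k, hk⟩ : ∃ k : ℕ,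
        Nat.card (M ⊓ Subgroup.centralizer ({cm t} : Set SL(2, F)) : Subgroup SL(2, F)) = k :=
      ⟨_, rfl⟩
    have hk0 : k ≠ 0 := by
      rw [← hk]
      exact Nat.card_pos.ne'
    haveI : NeZero k := ⟨hk0⟩
    have hord : orderOf a = k := by
      have h1 := orderOf_eq_card_of_forall_mem_zpowers hgen
      rw [ha₀, Subgroup.orderOf_coe, h1, hk]
    have hac : a * cm t = cm t * a := Subgroup.mem_centralizer_singleton_iff.1 haC
    let a' : M := ⟨a, haM⟩
    let b' : M := ⟨b, hbM⟩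
    have ha' : orderOf a' = k := by
      rw [Subgroup.orderOf_mk]
      exact hord
    have hb' : b' * b' = 1 := Subtype.ext hbb
    have hab : b' * a' * b'⁻¹ = a'⁻¹ := Subtype.ext (hbinv a hac)
    have hpowC : ∀ i : ZMod k, ((Cfsg.Agent.Lib.Helper20.ZP.zp a' k i : M) : SL(2, F)) ∈
        Subgroup.centralizer ({cm t} : Set SL(2, F)) := by
      intro i
      show ((a' ^ i.val : M) : SL(2, F)) ∈ _
      rw [Subgroup.coe_pow]
      exact Subgroup.pow_mem _ haC _
    have hba : ∀ i : ZMod k, b' ≠ Cfsg.Agent.Lib.Helper20.ZP.zp a' k i := by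
      intro i hbi
      apply hbC
      have := hpowC i
      rw [← hbi] at this
      exact this
    have hinj := Cfsg.Agent.Lib.Helper20.DihQuat.dihHom_injective ha' hb' hab hba
    have hmemz : ∀ y : M, (y : SL(2, F)) ∈ Subgroup.centralizer ({cm t} : Set SL(2, F)) →
        ∃ i : ZMod k, y = Cfsg.Agent.Lib.Helper20.ZP.zp a' k i := by
      intro y hy
      rw [← Cfsg.Agent.Lib.Helper20.ZP.mem_zpowers_iff ha']
      obtain ⟨j, hj⟩ := Subgroup.mem_zpowers_iff.1 (hgen ⟨y.1, y.2, hy⟩)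
      rw [Subgroup.mem_zpowers_iff]
      refine ⟨j, ?_⟩
      apply Subtype.ext
      have h1 := congrArg Subtype.val hj
      rw [Subgroup.coe_zpow] at h1 ⊢
      rw [← ha₀] at h1
      exact h1
    have hsurj : Function.Surjective (Cfsg.Agent.Lib.Helper20.DihQuat.dihHom ha' hb' hab) := by
      intro y
      by_cases hy : (y : SL(2, F)) ∈ Subgroup.centralizer ({cm t} : Set SL(2, F))
      · obtain ⟨i, hi⟩ := hmemz y hy
        exact ⟨DihedralGroup.r i, by rw [Cfsg.Agent.Lib.Helper20.DihQuat.dihHom_r, hi]⟩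
      · have hyc : ¬ ((y : SL(2, F)) * cm t = cm t * y) := fun h =>
          hy (Subgroup.mem_centralizer_singleton_iff.2 h)
        have hyN : (y : SL(2, F)) ∈ Ng (cm t) := hM y.2
        have hy' : (y : SL(2, F)) * cm t * (y : SL(2, F))⁻¹ = (cm t)⁻¹ := by
          rcases hyN with h | h
          · exact absurd (mul_inv_eq_iff_eq_mul.1 h) hyc
          · exact h
        have hb2 : b * cm t * b⁻¹ = (cm t)⁻¹ := by
          rcases hM hbM with h | h
          · exact absurd (mul_inv_eq_iff_eq_mul.1 h) hbc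
          · exact h
        have hprod : ((b' * y : M) : SL(2, F)) ∈
            Subgroup.centralizer ({cm t} : Set SL(2, F)) := by
          rw [Subgroup.mem_centralizer_singleton_iff]
          show b * (y : SL(2, F)) * cm t = cm t * (b * (y : SL(2, F)))
          have h1 : b * (y : SL(2, F)) * cm t * (b * (y : SL(2, F)))⁻¹ = cm t := by
            calc b * (y : SL(2, F)) * cm t * (b * (y : SL(2, F)))⁻¹
                = b * ((y : SL(2, F)) * cm t * (y : SL(2, F))⁻¹) * b⁻¹ := by group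
              _ = (b * cm t * b⁻¹)⁻¹ := by rw [hy']; group
              _ = cm t := by rw [hb2, inv_inv]
          exact mul_inv_eq_iff_eq_mul.1 h1
        obtain ⟨i, hi⟩ := hmemz (b' * y) hprod
        refine ⟨DihedralGroup.sr i, ?_⟩
        rw [Cfsg.Agent.Lib.Helper20.DihQuat.dihHom_sr, ← hi, ← mul_assoc, hb', one_mul]
    refine ⟨k, ?_, Or.inr ⟨(MulEquiv.ofBijective _ ⟨hinj, hsurj⟩).symm⟩⟩
    rw [← hk]
    exact Subgroup.card_dvd_of_le hle

/-- `Sk k` is a copy of `PSL(2, K)` for a field `K : Type` of the same cardinality -/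
theorem Sk_iso_psl (k : Subfield F) (hk : ∃ b ∈ k, b ≠ 0 ∧ b ≠ 1) :
    ∃ (K : Type) (_ : Field K) (_ : Fintype K), Fintype.card K = Nat.card k ∧
      Nonempty (Sk k ≃* Matrix.ProjectiveSpecialLinearGroup (Fin 2) K) := by
  have h3 := card_three_le k hk
  obtain ⟨N, -, hN⟩ := FiniteField.card F 2
  have hdvd : Nat.card k ∣ 2 ^ (N : ℕ) := by
    rw [← hN]
    exact card_dvd_card k
  obtain ⟨n, -, hn⟩ := (Nat.dvd_prime_pow Nat.prime_two).1 hdvd
  have hn0 : n ≠ 0 := by
    rintro rfl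
    rw [pow_zero] at hn
    omega
  haveI : Fintype k := Fintype.ofFinite k
  letI : Fintype (GaloisField 2 n) := Fintype.ofFinite _
  have hc0 : Fintype.card (GaloisField 2 n) = Nat.card k := by
    rw [← Nat.card_eq_fintype_card, GaloisField.card 2 n hn0, hn]
  refine ⟨GaloisField 2 n, inferInstance, inferInstance, hc0, ?_⟩
  have iso3 : (Sk k) ≃* (Sk k).map (QuotientGroup.mk' (Subgroup.center SL(2, F))) :=
    Subgroup.equivMapOfInjective _ _
      (Cfsg.Agent.Lib.Helper42.SL2Even.slEquivPSL (F := F)).injective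
  have iso4 := Cfsg.Agent.Lib.Helper98.SL2Field.pslIso (k.subtype)
  rw [Subfield.fieldRange_subtype] at iso4
  obtain ⟨iso5⟩ := Cfsg.Agent.Lib.Helper99.PSLCongr.nonempty_pslCongr_of_card_eq
    (n := Fin 2) (K := k) (K' := GaloisField 2 n)
    (by rw [hc0, Nat.card_eq_fintype_card])
  exact ⟨iso3.trans (iso4.trans iso5)⟩

theorem card_sylow {n : ℕ} (hn : Fintype.card F = 2 ^ n) :
    Nat.card ((Subgroup.centralizer ({u (1 : F)} : Set SL(2, F))).map
      (Cfsg.Agent.Lib.Helper42.SL2Even.slEquivPSL (F := F)).toMonoidHom) =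
      2 ^ (Nat.card (Matrix.ProjectiveSpecialLinearGroup (Fin 2) F)).factorization 2 := by
  rw [← Nat.card_congr (Subgroup.equivMapOfInjective
    (Subgroup.centralizer ({u (1 : F)} : Set SL(2, F)))
    (Cfsg.Agent.Lib.Helper42.SL2Even.slEquivPSL (F := F)).toMonoidHom
    (Cfsg.Agent.Lib.Helper42.SL2Even.slEquivPSL (F := F)).injective).toEquiv, card_cent_u,
    card_psl, hn]
  have hn0 : n ≠ 0 := by
    rintro rfl
    rw [pow_zero] at hn
    have := Fintype.one_lt_card (α := F)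
    omega
  have h2 : 2 ≤ 2 ^ n := by
    calc 2 = 2 ^ 1 := by norm_num
      _ ≤ 2 ^ n := Nat.pow_le_pow_right (by norm_num) (by omega)
  have heven : 2 ∣ 2 ^ n := dvd_pow_self 2 hn0
  have hodd1 : ¬ 2 ∣ 2 ^ n + 1 := by omega
  have hodd2 : ¬ 2 ∣ 2 ^ n - 1 := by omega
  have e : (((2 : ℕ) ^ n + 1) * (2 ^ n * (2 ^ n - 1))).factorization 2 = n := by
    rw [Nat.factorization_mul (by omega) (Nat.mul_ne_zero (by omega) (by omega)),
      Nat.factorization_mul (by omega) (by omega), Finsupp.add_apply, Finsupp.add_apply,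
      Nat.factorization_eq_zero_of_not_dvd hodd1, Nat.factorization_eq_zero_of_not_dvd hodd2,
      Nat.Prime.factorization_pow Nat.prime_two, Finsupp.single_eq_same]
    omega
  rw [e]

end Cfsg.Agent.Lib.Helper6.DEven4

namespace Cfsg.Agent.Lib.Helper6.DEven4

open Matrix MatrixGroups Cfsg.Agent.Lib.Helper98.SL2Sub Cfsg.Agent.Lib.Helper98.ClassEq
  Cfsg.Agent.Lib.Helper6.DE1 Cfsg.Agent.Lib.Helper6.DE2 Cfsg.Agent.Lib.Helper6.DE3
  Cfsg.Agent.Lib.Helper6.DE4 Cfsg.Agent.Lib.Helper6.DE5 Cfsg.Agent.Lib.Helper6.DE6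
  Cfsg.Agent.Lib.Helper6.DE7 Cfsg.Agent.Lib.Helper6.DE8 Cfsg.Agent.Lib.Helper6.DE9
  Cfsg.Agent.Lib.Helper6.DEven1 Cfsg.Agent.Lib.Helper6.DEven2 Cfsg.Agent.Lib.Helper6.DEven3

variable {F : Type*} [Field F] [Fintype F]

/-- even half of S0799 -/
theorem even_S0799 {q : ℕ} (hF : Fintype.card F = q) (heven : Even q) (p : ℕ) [Fact p.Prime]
    [CharP F p] (H : Subgroup (Matrix.ProjectiveSpecialLinearGroup (Fin 2) F)) :
    (∃ k : ℕ, (k ∣ (q + 1) / Nat.gcd 2 (q - 1) ∨ k ∣ (q - 1) / Nat.gcd 2 (q - 1)) ∧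
      ((IsCyclic H ∧ Nat.card H = k) ∨ Nonempty (H ≃* DihedralGroup k))) ∨
    (∃ (P : Sylow p (Matrix.ProjectiveSpecialLinearGroup (Fin 2) F))
      (K : Subgroup (Matrix.ProjectiveSpecialLinearGroup (Fin 2) F)),
      K ≤ Subgroup.normalizer ((P : Subgroup (Matrix.ProjectiveSpecialLinearGroup (Fin 2) F)) :
        Set (Matrix.ProjectiveSpecialLinearGroup (Fin 2) F)) ∧ Nonempty (H ≃* K)) ∨
    Nonempty (H ≃* alternatingGroup (Fin 4)) ∨ Nonempty (H ≃* Equiv.Perm (Fin 4)) ∨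
    Nonempty (H ≃* alternatingGroup (Fin 5)) ∨
    (∃ (K : Type) (_ : Field K) (_ : Fintype K) (m : ℕ), Fintype.card K ^ m = q ∧
      (Nonempty (H ≃* Matrix.ProjectiveSpecialLinearGroup (Fin 2) K) ∨
        Nonempty (H ≃* Matrix.ProjGenLinGroup (Fin 2) K))) := by
  rw [gcd_eq_one hF heven, Nat.div_one, Nat.div_one]
  subst hF
  have hc2 : CharP F 2 :=
    Cfsg.Agent.Lib.Helper42.SL2Even.charP_two_of_even (even_iff_two_dvd.1 heven)
  obtain rfl : p = 2 := CharP.eq F ‹CharP F p› hc2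
  obtain ⟨M', hM'⟩ : ∃ M' : Subgroup SL(2, F),
      M' = H.map (Cfsg.Agent.Lib.Helper42.SL2Even.slEquivPSL (F := F)).symm.toMonoidHom := ⟨_, rfl⟩
  have iso1 : H ≃* M' := by
    rw [hM']
    exact Subgroup.equivMapOfInjective H
      (Cfsg.Agent.Lib.Helper42.SL2Even.slEquivPSL (F := F)).symm.toMonoidHom
      (Cfsg.Agent.Lib.Helper42.SL2Even.slEquivPSL (F := F)).symm.injective
  obtain ⟨g, hg⟩ := subgroups M'
  obtain ⟨M'', hM''⟩ : ∃ M'' : Subgroup SL(2, F), M'' = M'.map (MulAut.conj g).toMonoidHom :=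
    ⟨_, rfl⟩
  rw [← hM''] at hg
  have iso2 : M' ≃* M'' := by
    rw [hM'']
    exact Subgroup.equivMapOfInjective M' _ (MulAut.conj g).injective
  have iso : H ≃* M'' := iso1.trans iso2
  rcases hg with hB | ⟨t, ht, hN⟩ | ⟨k, hk, hS⟩
  · right; left
    obtain ⟨n, -, hn⟩ := FiniteField.card F 2
    refine ⟨Sylow.ofCard _ (card_sylow hn),
      M''.map (Cfsg.Agent.Lib.Helper42.SL2Even.slEquivPSL (F := F)).toMonoidHom, ?_,
      ⟨iso.trans (Subgroup.equivMapOfInjective M''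
        (Cfsg.Agent.Lib.Helper42.SL2Even.slEquivPSL (F := F)).toMonoidHom
        (Cfsg.Agent.Lib.Helper42.SL2Even.slEquivPSL (F := F)).injective)⟩⟩
    rw [Sylow.coe_ofCard]
    exact (Subgroup.map_mono (hB.trans Bor_le_normalizer)).trans
      (Subgroup.le_normalizer_map _)
  · left
    obtain ⟨k, hk, h⟩ := sub_Ng ht M'' hN
    refine ⟨k, ?_, ?_⟩
    · rcases card_cent_cm' ht with hc | hc
      · right
        rw [← hc]
        exact hk
      · left
        rw [← hc]
        exact hk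
    · rcases h with ⟨hcyc, hcard⟩ | ⟨⟨φ⟩⟩
      · left
        refine ⟨?_, ?_⟩
        · haveI := hcyc
          exact isCyclic_of_surjective iso.symm iso.symm.surjective
        · rw [Nat.card_congr iso.toEquiv, hcard]
      · right
        exact ⟨iso.trans φ⟩
  · right; right; right; right; right
    obtain ⟨K, hKf, hKt, hKc, ⟨φ⟩⟩ := Sk_iso_psl k hk
    refine ⟨K, hKf, hKt, Module.finrank k F, ?_, Or.inl ⟨(iso.trans
      (MulEquiv.subgroupCongr hS)).trans φ⟩⟩
    rw [hKc, ← Nat.card_eq_fintype_card (α := F)]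
    exact Module.natCard_eq_pow_finrank.symm

end Cfsg.Agent.Lib.Helper6.DEven4
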