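import Mathlib
import Cfsg.Agent.Lib.Helper6.Dk5

/-!
# Dickson's list of the subgroups of `PSL(2, q)`, `q` odd (helper6)

`odd_S0799`: the odd half of statement S0799 (the even half is `DEven4.even_S0799`).
-/

set_option autoImplicit false
set_option linter.unusedSimpArgs false
set_option linter.unusedVariables false
set_option linter.unusedSectionVars false
set_option linter.style.haveILetI false
set_option linter.unnecessarySeqFocus false
set_option linter.unreachableTactic false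
set_option linter.unusedTactic false

namespace Cfsg.Agent.Lib.Helper6.Dk6

open Matrix MatrixGroups
open Cfsg.Agent.Lib.Helper53.SL2Inv Cfsg.Agent.Lib.Helper53.SL2Unip
open Cfsg.Agent.Lib.Helper98.SL2Sub Cfsg.Agent.Lib.Helper98.SL2Core
open Cfsg.Agent.Lib.Helper98.SL2Tor Cfsg.Agent.Lib.Helper98.PSL2Max
open Cfsg.Agent.Lib.Helper98.DicksonB Cfsg.Agent.Lib.Helper98.DicksonOdd
open Cfsg.Agent.Lib.Helper98.SL2Field
open Cfsg.Agent.S5941 (Pk Sk_le_Pk)
open Cfsg.Agent.Lib.Helper6.Sb2 Cfsg.Agent.Lib.Helper6.Dk2 Cfsg.Agent.Lib.Helper6.Dk3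
  Cfsg.Agent.Lib.Helper6.Dk4 Cfsg.Agent.Lib.Helper6.Dk5

variable {F : Type*} [Field F] [Fintype F]

/-- odd half of S0799 -/
theorem odd_S0799 {q : ℕ} (hF : Fintype.card F = q) (hodd : Odd q) (p : ℕ) [Fact p.Prime]
    [CharP F p] (H : Subgroup (Matrix.ProjectiveSpecialLinearGroup (Fin 2) F)) :
    (∃ k : ℕ, (k ∣ (q + 1) / Nat.gcd 2 (q - 1) ∨ k ∣ (q - 1) / Nat.gcd 2 (q - 1)) ∧
      ((IsCyclic H ∧ Nat.card H = k) ∨ Nonempty (H ≃* DihedralGroup k))) ∨
    (∃ (P : Sylow p (Matrix.ProjectiveSpecialLinearGroup (Fin 2) F))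
      (K : Subgroup (Matrix.ProjectiveSpecialLinearGroup (Fin 2) F)),
      K ≤ Subgroup.normalizer ((P : Subgroup (Matrix.ProjectiveSpecialLinearGroup (Fin 2) F)) :
        Set (Matrix.ProjectiveSpecialLinearGroup (Fin 2) F)) ∧ Nonempty (H ≃* K)) ∨
    Nonempty (H ≃* alternatingGroup (Fin 4)) ∨ Nonempty (H ≃* Equiv.Perm (Fin 4)) ∨
    Nonempty (H ≃* alternatingGroup (Fin 5)) ∨
    (∃ (K : Type) (_ : Field K) (_ : Fintype K) (m : ℕ), Fintype.card K ^ m = q ∧
      (Nonempty (H ≃* Matrix.ProjectiveSpecialLinearGroup (Fin 2) K) ∨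
        Nonempty (H ≃* Matrix.ProjGenLinGroup (Fin 2) K))) := by
  haveI : Finite SL(2, F) := finite_SL
  haveI : Finite (Matrix.ProjectiveSpecialLinearGroup (Fin 2) F) :=
    Finite.of_surjective _ proj_surj
  have h2 : (2 : F) ≠ 0 := two_ne_zero_of_odd (by rw [hF]; exact hodd)
  have hg : Nat.gcd 2 (q - 1) = 2 := by
    obtain ⟨j, hj⟩ := hodd
    apply Nat.gcd_eq_left
    rw [hj]
    exact ⟨j, by omega⟩
  rw [hg]
  obtain ⟨X, hX⟩ : ∃ X, X = H.comap proj := ⟨_, rfl⟩
  have hneg : negOne ∈ X := by rw [hX]; exact negOne_mem_comap H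
  have hHX : X.map proj = H := by
    rw [hX]
    exact Subgroup.map_comap_eq_self_of_surjective proj_surj H
  have isoH : H ≃* X.map proj := MulEquiv.subgroupCongr hHX.symm
  by_cases hB : ∃ g : SL(2, F), ∀ y ∈ X, (g * y * g⁻¹).1 1 0 = 0
  · obtain ⟨g, hg'⟩ := hB
    obtain ⟨P, K, hK, ⟨φ⟩⟩ := case_borel p h2 X g hg'
    right; left
    exact ⟨P, K, hK, ⟨isoH.trans φ⟩⟩
  by_cases hp : p ∣ Nat.card X
  · rcases main p h2 X hp with h | ⟨φ, k, h1, h2'⟩ | ⟨h3, φ, i, hi, hle, hne⟩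
    · exact absurd h hB
    · obtain ⟨K, hKf, hKt, m, hm, hiso⟩ := case_subfield p h2 hF X φ k h1 h2'
      right; right; right; right; right
      refine ⟨K, hKf, hKt, m, hm, ?_⟩
      rcases hiso with ⟨⟨ψ⟩⟩ | ⟨⟨ψ⟩⟩
      · exact Or.inl ⟨isoH.trans ψ⟩
      · exact Or.inr ⟨isoH.trans ψ⟩
    · have hp3 : p = 3 := by
        have h3' : ((3 : ℕ) : F) = 0 := by exact_mod_cast h3
        have hd := (CharP.cast_eq_zero_iff F p 3).1 h3'
        exact (Nat.prime_dvd_prime_iff_eq Fact.out Nat.prime_three).1 hd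
      obtain ⟨X', hX'⟩ : ∃ X', X' = X.map φ.toMonoidHom := ⟨_, rfl⟩
      rw [← hX'] at hle hne
      have hnegX' : negOne ∈ X' := by
        rw [hX']
        exact ⟨negOne, hneg, map_negOne h2 φ⟩
      obtain ⟨hd720, hle60⟩ := card_le_sixty h2 h3 i hi X' hnegX' hle hne
      obtain ⟨φ0⟩ := transport φ X
      rw [← hX'] at φ0
      have hcX : Nat.card X = 2 * Nat.card H := by rw [hX]; exact card_comap h2 H
      have hcX' : Nat.card X' = Nat.card X := by rw [hX']; exact card_map_equiv X φ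
      have hcH : Nat.card H = Nat.card (X'.map proj) := Nat.card_congr (isoH.trans φ0).toEquiv
      have hd360 : Nat.card H ∣ 360 := by
        rw [hcX', hcX] at hd720
        have e : (720 : ℕ) = 2 * 360 := by norm_num
        rw [e] at hd720
        exact (Nat.mul_dvd_mul_iff_left (by norm_num : 0 < 2)).1 hd720
      have hp' : p ∣ Nat.card (H.comap proj) := by rw [← hX]; exact hp
      have hnb : ¬ ∃ g : SL(2, F), ∀ y ∈ H.comap proj, (g * y * g⁻¹).1 1 0 = 0 := by
        rw [← hX]; exact hB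
      rcases case_unip p h2 hp3 H hp' hnb hd360 (by rw [hcH]; exact hle60) with h | h | h
      · exact Or.inr (Or.inr (Or.inl h))
      · exact Or.inr (Or.inr (Or.inr (Or.inl h)))
      · exact Or.inr (Or.inr (Or.inr (Or.inr (Or.inl h))))
  · have hp' : ¬ p ∣ Nat.card (H.comap proj) := by rw [← hX]; exact hp
    by_cases hsq : ∀ x ∈ X, ∀ y ∈ X, x ^ 2 * y ^ 2 = y ^ 2 * x ^ 2
    · left
      have hsq' : ∀ x ∈ H.comap proj, ∀ y ∈ H.comap proj, x ^ 2 * y ^ 2 = y ^ 2 * x ^ 2 := by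
        rw [← hX]; exact hsq
      exact case_sqcomm p h2 hF H hp' hsq'
    · have hc : Nat.card X = 24 ∨ Nat.card X = 48 ∨ Nat.card X = 120 := by
        rcases core p h2 X hneg hp with h | h
        · exact absurd h hsq
        · exact h
      have hsq' : ¬ ∀ x ∈ H.comap proj, ∀ y ∈ H.comap proj,
          x ^ 2 * y ^ 2 = y ^ 2 * x ^ 2 := by
        rw [← hX]; exact hsq
      have hc' : Nat.card (H.comap proj) = 24 ∨ Nat.card (H.comap proj) = 48 ∨
          Nat.card (H.comap proj) = 120 := by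
        rw [← hX]; exact hc
      rcases case_pprime p h2 H hp' hsq' hc' with h | h | h
      · exact Or.inr (Or.inr (Or.inl h))
      · exact Or.inr (Or.inr (Or.inr (Or.inl h)))
      · exact Or.inr (Or.inr (Or.inr (Or.inr (Or.inl h))))

end Cfsg.Agent.Lib.Helper6.Dk6
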