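import Mathlib
import Cfsg.Agent.Lib.Helper37.EluStmt

/-!
# S5958, piece CYCGEN

`φ ^ r = 1`, `c = orderOf (q : ZMod r) ≥ 2`: the space is spanned by `m` fixed vectors and the
`φ`-orbits of `s` vectors killed by the norm `∑_{j<r} φ^j`, with `m + c s = dim V`.

Proof: `V = ker (φ - 1) ⊕ ker N`, `N = ∑_{j<r} φ^j`; every invariant subspace of `ker N` has
dimension divisible by `c` (the cyclic group acts freely on its non-zero vectors); a greedy choice
of generators of `ker N` then needs at most `dim (ker N) / c` of them.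
-/

set_option autoImplicit false

namespace Cfsg.Agent.Lib.Helper6.EluCYCGEN

universe u

/-- A self-map whose `r`-th iterate is the identity (`r` prime): the cardinality is congruent
mod `r` to the number of fixed points. -/
theorem card_modEq_fixed_iter {X : Type u} [Finite X] (r : ℕ) [Fact r.Prime] (f : X → X)
    (hf : ∀ x : X, f^[r] x = x) :
    Nat.card X ≡ Nat.card {x : X // f x = x} [MOD r] := by
  classical
  haveI : Fintype X := Fintype.ofFinite X
  let g : Function.End X := f
  have hg : g ^ r ^ 1 = 1 := by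
    rw [pow_one]
    funext x
    exact hf x
  have h := Equiv.Perm.card_fixedPoints_modEq (f := g) (p := r) (n := 1) hg
  rw [← Nat.card_eq_fintype_card, ← Nat.card_eq_fintype_card] at h
  exact h

section

variable {F : Type u} [Field F] {V : Type u} [AddCommGroup V] [Module F V]

/-- the norm operator -/
noncomputable def nrm (φ : Module.End F V) (r : ℕ) : Module.End F V :=
  ∑ j ∈ Finset.range r, φ ^ j

theorem nrm_apply (φ : Module.End F V) (r : ℕ) (x : V) :
    nrm φ r x = ∑ j ∈ Finset.range r, (φ ^ j) x := by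
  simp [nrm, LinearMap.sum_apply]

theorem mul_nrm (φ : Module.End F V) (r : ℕ) (h : φ ^ r = 1) : φ * nrm φ r = nrm φ r := by
  have h1 := mul_geom_sum φ r
  rw [h, sub_self, sub_mul, one_mul, sub_eq_zero] at h1
  exact h1

theorem nrm_mul (φ : Module.End F V) (r : ℕ) (h : φ ^ r = 1) : nrm φ r * φ = nrm φ r := by
  have h1 := geom_sum_mul φ r
  rw [h, sub_self, mul_sub, mul_one, sub_eq_zero] at h1
  exact h1

theorem pow_mul_nrm (φ : Module.End F V) (r : ℕ) (h : φ ^ r = 1) (j : ℕ) :
    φ ^ j * nrm φ r = nrm φ r := by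
  induction j with
  | zero => rw [pow_zero, one_mul]
  | succ j ih => rw [pow_succ, mul_assoc, mul_nrm φ r h, ih]

theorem nrm_mul_pow (φ : Module.End F V) (r : ℕ) (h : φ ^ r = 1) (j : ℕ) :
    nrm φ r * φ ^ j = nrm φ r := by
  induction j with
  | zero => rw [pow_zero, mul_one]
  | succ j ih => rw [pow_succ, ← mul_assoc, ih, nrm_mul φ r h]

theorem nrm_nrm (φ : Module.End F V) (r : ℕ) (h : φ ^ r = 1) :
    nrm φ r * nrm φ r = (r : F) • nrm φ r := by
  have h1 : nrm φ r * nrm φ r = ∑ j ∈ Finset.range r, φ ^ j * nrm φ r := by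
    rw [← Finset.sum_mul]
    rfl
  rw [h1, Finset.sum_congr rfl (fun j _ => pow_mul_nrm φ r h j), Finset.sum_const,
    Finset.card_range, Nat.cast_smul_eq_nsmul]

theorem pow_apply_fixed (φ : Module.End F V) (x : V) (hx : φ x = x) (j : ℕ) : (φ ^ j) x = x := by
  induction j with
  | zero => simp
  | succ j ih => rw [pow_succ, Module.End.mul_apply, hx, ih]

theorem nrm_fixed (φ : Module.End F V) (r : ℕ) (x : V) (hx : φ x = x) :
    nrm φ r x = (r : F) • x := by
  rw [nrm_apply, Finset.sum_congr rfl (fun j _ => pow_apply_fixed φ x hx j), Finset.sum_const,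
    Finset.card_range, Nat.cast_smul_eq_nsmul]

/-- the orbits of the `u i` -/
def orb (φ : Module.End F V) (r k : ℕ) (u : Fin k → V) : Set V :=
  Set.range (fun ij : Fin k × Fin r => (φ ^ (ij.2 : ℕ)) (u ij.1))

theorem span_orb_inv (φ : Module.End F V) (r : ℕ) (hr : 0 < r) (h : φ ^ r = 1) (k : ℕ)
    (u : Fin k → V) :
    ∀ x ∈ Submodule.span F (orb φ r k u), φ x ∈ Submodule.span F (orb φ r k u) := by
  intro x hx
  induction hx using Submodule.span_induction with
  | mem y hy =>
    obtain ⟨⟨i, j⟩, rfl⟩ := hy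
    by_cases hj : (j : ℕ) + 1 < r
    · apply Submodule.subset_span
      refine ⟨(i, ⟨j + 1, hj⟩), ?_⟩
      show (φ ^ ((j : ℕ) + 1)) (u i) = φ ((φ ^ (j : ℕ)) (u i))
      rw [pow_succ', Module.End.mul_apply]
    · have hj' : (j : ℕ) + 1 = r := by have := j.2; omega
      apply Submodule.subset_span
      refine ⟨(i, ⟨0, hr⟩), ?_⟩
      show (φ ^ 0) (u i) = φ ((φ ^ (j : ℕ)) (u i))
      rw [← Module.End.mul_apply, ← pow_succ', hj', h, pow_zero]
  | zero => simp
  | add a b _ _ ha hb => rw [map_add]; exact Submodule.add_mem _ ha hb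
  | smul c a _ ha => rw [map_smul]; exact Submodule.smul_mem _ c ha

theorem span_orb_le (φ : Module.End F V) (r : ℕ) (h : φ ^ r = 1) (k : ℕ) (u : Fin k → V)
    (hu : ∀ i, nrm φ r (u i) = 0) :
    Submodule.span F (orb φ r k u) ≤ LinearMap.ker (nrm φ r) := by
  rw [Submodule.span_le]
  rintro _ ⟨⟨i, j⟩, rfl⟩
  refine LinearMap.mem_ker.2 ?_
  show nrm φ r ((φ ^ (j : ℕ)) (u i)) = 0
  rw [← Module.End.mul_apply, nrm_mul_pow φ r h, hu]

theorem orb_cons_subset (φ : Module.End F V) (r k : ℕ) (u : Fin k → V) (w : V) :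
    orb φ r k u ⊆ orb φ r (k + 1) (Fin.cons w u) := by
  rintro _ ⟨⟨i, j⟩, rfl⟩
  exact ⟨(i.succ, j), by simp⟩

/-- every invariant subspace of `ker N` has dimension divisible by `c` -/
theorem dvd_finrank [Fintype F] [FiniteDimensional F V] (φ : Module.End F V) (r : ℕ)
    [Fact r.Prime] (hrF : (r : F) ≠ 0) (h : φ ^ r = 1) (U : Submodule F V)
    (hU : ∀ x ∈ U, φ x ∈ U) (hUN : U ≤ LinearMap.ker (nrm φ r)) :
    orderOf ((Fintype.card F : ℕ) : ZMod r) ∣ Module.finrank F U := by
  classical
  have : Finite U := Module.finite_of_finite F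
  haveI : Fintype U := Fintype.ofFinite U
  let f : U → U := fun x => ⟨φ x.1, hU x.1 x.2⟩
  have hiter : ∀ (k : ℕ) (x : U), ((f^[k]) x).1 = (φ ^ k) x.1 := by
    intro k
    induction k with
    | zero => intro x; simp
    | succ k ih =>
      intro x
      rw [Function.iterate_succ_apply', pow_succ', Module.End.mul_apply, ← ih]
  have hfr : ∀ x : U, f^[r] x = x := by
    intro x
    apply Subtype.ext
    rw [hiter, h]
    rfl
  have hmod := card_modEq_fixed_iter r f hfr
  have hfix : Nat.card {x : U // f x = x} = 1 := by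
    rw [Nat.card_eq_one_iff_unique]
    refine ⟨⟨?_⟩, ⟨⟨0, ?_⟩⟩⟩
    · rintro ⟨a, ha⟩ ⟨b, hb⟩
      have key : ∀ x : U, f x = x → x = 0 := by
        intro x hx
        have hx1 : φ x.1 = x.1 := congrArg Subtype.val hx
        have h2 : nrm φ r x.1 = 0 := LinearMap.mem_ker.1 (hUN x.2)
        rw [nrm_fixed φ r x.1 hx1] at h2
        rcases smul_eq_zero.1 h2 with h3 | h3
        · exact absurd h3 hrF
        · exact Subtype.ext h3
      apply Subtype.ext
      exact (key a ha).trans (key b hb).symm
    · apply Subtype.ext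
      show φ (0 : V) = 0
      exact map_zero φ
  rw [hfix, Nat.card_eq_fintype_card, Module.card_eq_pow_finrank (K := F) (V := U)] at hmod
  apply orderOf_dvd_of_pow_eq_one
  have h3 := (ZMod.natCast_eq_natCast_iff _ _ _).2 hmod
  push_cast at h3
  exact h3

/-- greedy generation of `ker N` -/
theorem greedy [Fintype F] [FiniteDimensional F V] (φ : Module.End F V) (r : ℕ)
    [Fact r.Prime] (hrF : (r : F) ≠ 0) (h : φ ^ r = 1) (k : ℕ) :
    ∃ u : Fin k → V, (∀ i, nrm φ r (u i) = 0) ∧
      (Submodule.span F (orb φ r k u) = LinearMap.ker (nrm φ r) ∨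
        orderOf ((Fintype.card F : ℕ) : ZMod r) * k ≤
          Module.finrank F (Submodule.span F (orb φ r k u))) := by
  have hr : r.Prime := Fact.out
  induction k with
  | zero => exact ⟨fun i => i.elim0, fun i => i.elim0, Or.inr (by simp)⟩
  | succ k ih =>
    obtain ⟨u, hu, hor⟩ := ih
    by_cases hUW : Submodule.span F (orb φ r k u) = LinearMap.ker (nrm φ r)
    · refine ⟨Fin.cons 0 u, ?_, Or.inl ?_⟩
      · intro i
        refine Fin.cases ?_ (fun i => ?_) i
        · simp
        · simpa using hu i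
      · apply le_antisymm
        · apply span_orb_le φ r h
          intro i
          refine Fin.cases ?_ (fun i => ?_) i
          · simp
          · simpa using hu i
        · rw [← hUW]
          exact Submodule.span_mono (orb_cons_subset φ r k u 0)
    · have hle : Submodule.span F (orb φ r k u) ≤ LinearMap.ker (nrm φ r) :=
        span_orb_le φ r h k u hu
      have hlt : Submodule.span F (orb φ r k u) < LinearMap.ker (nrm φ r) :=
        lt_of_le_of_ne hle hUW
      obtain ⟨w, hwW, hwU⟩ := SetLike.exists_of_lt hlt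
      have hu' : ∀ i, nrm φ r ((Fin.cons w u : Fin (k + 1) → V) i) = 0 := by
        intro i
        refine Fin.cases ?_ (fun i => ?_) i
        · simpa using LinearMap.mem_ker.1 hwW
        · simpa using hu i
      refine ⟨Fin.cons w u, hu', Or.inr ?_⟩
      have hmono : Submodule.span F (orb φ r k u) ≤
          Submodule.span F (orb φ r (k + 1) (Fin.cons w u)) :=
        Submodule.span_mono (orb_cons_subset φ r k u w)
      have hw' : w ∈ Submodule.span F (orb φ r (k + 1) (Fin.cons w u)) := by
        apply Submodule.subset_span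
        exact ⟨(0, ⟨0, hr.pos⟩), by simp⟩
      have hlt' : Submodule.span F (orb φ r k u) <
          Submodule.span F (orb φ r (k + 1) (Fin.cons w u)) :=
        lt_of_le_of_ne hmono (fun heq => hwU (heq ▸ hw'))
      have hfr := Submodule.finrank_lt_finrank_of_lt hlt'
      have hdvd := dvd_finrank φ r hrF h (Submodule.span F (orb φ r (k + 1) (Fin.cons w u)))
        (span_orb_inv φ r hr.pos h (k + 1) _) (span_orb_le φ r h (k + 1) _ hu')
      rcases hor with h1 | h1
      · exact absurd h1 hUW
      · obtain ⟨t, ht⟩ := hdvd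
        rw [ht] at hfr ⊢
        have hkt : k < t := by
          by_contra hcon
          push Not at hcon
          have := Nat.mul_le_mul_left (orderOf ((Fintype.card F : ℕ) : ZMod r)) hcon
          omega
        exact Nat.mul_le_mul_left _ hkt

end

theorem main : Cfsg.Agent.Lib.Helper37.EluStmt.CycGen.{u} := by
  intro F _ _ p _ _ r _ hrp hc V _ _ _ φ h
  have hr : r.Prime := Fact.out
  have hp : p.Prime := Fact.out
  have hrF : (r : F) ≠ 0 := by
    intro h0
    have h1 := (CharP.cast_eq_zero_iff F p r).1 h0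
    exact hrp ((Nat.prime_dvd_prime_iff_eq hp hr).1 h1).symm
  -- the complement decomposition
  have hdisj : Disjoint (LinearMap.ker (φ - 1)) (LinearMap.ker (nrm φ r)) := by
    rw [Submodule.disjoint_def]
    intro x hx1 hx2
    have h1 : φ x = x := by
      have := LinearMap.mem_ker.1 hx1
      rw [LinearMap.sub_apply, Module.End.one_apply, sub_eq_zero] at this
      exact this
    have h2 : nrm φ r x = 0 := LinearMap.mem_ker.1 hx2
    rw [nrm_fixed φ r x h1] at h2
    rcases smul_eq_zero.1 h2 with h3 | h3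
    · exact absurd h3 hrF
    · exact h3
  have hcodisj : Codisjoint (LinearMap.ker (φ - 1)) (LinearMap.ker (nrm φ r)) := by
    rw [codisjoint_iff, eq_top_iff]
    intro x _
    rw [Submodule.mem_sup]
    refine ⟨(r : F)⁻¹ • nrm φ r x, ?_, x - (r : F)⁻¹ • nrm φ r x, ?_, by abel⟩
    · refine LinearMap.mem_ker.2 ?_
      rw [LinearMap.sub_apply, Module.End.one_apply, map_smul, ← Module.End.mul_apply,
        mul_nrm φ r h, sub_self]
    · refine LinearMap.mem_ker.2 ?_
      rw [map_sub, map_smul, ← Module.End.mul_apply, nrm_nrm φ r h, LinearMap.smul_apply,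
        smul_smul, inv_mul_cancel₀ hrF, one_smul, sub_self]
  have hcompl : IsCompl (LinearMap.ker (φ - 1)) (LinearMap.ker (nrm φ r)) := ⟨hdisj, hcodisj⟩
  have hinvW : ∀ x ∈ LinearMap.ker (nrm φ r), φ x ∈ LinearMap.ker (nrm φ r) := by
    intro x hx
    refine LinearMap.mem_ker.2 ?_
    rw [← Module.End.mul_apply, nrm_mul φ r h]
    exact LinearMap.mem_ker.1 hx
  obtain ⟨s, hs⟩ := dvd_finrank φ r hrF h (LinearMap.ker (nrm φ r)) hinvW le_rfl
  obtain ⟨u, hu, hor⟩ := greedy φ r hrF h s
  have hspanW : Submodule.span F (orb φ r s u) = LinearMap.ker (nrm φ r) := by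
    rcases hor with h1 | h1
    · exact h1
    · exact Submodule.eq_of_le_of_finrank_le (span_orb_le φ r h s u hu) (by rw [hs]; exact h1)
  let b := Module.finBasis F (LinearMap.ker (φ - 1))
  refine ⟨Module.finrank F (LinearMap.ker (φ - 1)), s, fun i => ((b i : LinearMap.ker (φ - 1)) : V),
    u, ?_, ?_, ?_, ?_⟩
  · rw [← hs]
    exact Submodule.finrank_add_eq_of_isCompl hcompl
  · intro i
    have := LinearMap.mem_ker.1 (b i).2
    rw [LinearMap.sub_apply, Module.End.one_apply, sub_eq_zero] at this
    exact this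
  · intro i
    rw [← nrm_apply]
    exact hu i
  · rw [Submodule.span_union]
    have h1 : Submodule.span F (Set.range fun i => ((b i : LinearMap.ker (φ - 1)) : V)) =
        LinearMap.ker (φ - 1) := by
      have h2 : (Set.range fun i => ((b i : LinearMap.ker (φ - 1)) : V)) =
          (LinearMap.ker (φ - 1)).subtype '' Set.range b := by
        rw [← Set.range_comp]
        rfl
      rw [h2, ← Submodule.map_span, b.span_eq, Submodule.map_subtype_top]
    rw [h1]
    show LinearMap.ker (φ - 1) ⊔ Submodule.span F (orb φ r s u) = ⊤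
    rw [hspanW]
    exact hcompl.sup_eq_top

end Cfsg.Agent.Lib.Helper6.EluCYCGEN
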