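import Mathlib
import Cfsg.Agent.Lib.Helper23.HNStmt

set_option autoImplicit false

/-! S1438 piece HNU (helper6, 4th seat): in a nilpotent subgroup a Hall subgroup is determined
by its order. -/

namespace Cfsg.Agent.Lib.Helper6.HNHNU

open Cfsg.Agent.Lib.Helper23.HNStmt

universe u

/-- a normal Hall subgroup contains every element whose order divides its order -/
theorem mem_of_normal_hall {G : Type*} [Group G] [Finite G] (A H : Subgroup G)
    (hn : H ≤ Subgroup.normalizer (A : Set G)) (hcop : (Nat.card A).Coprime (A.relIndex H))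
    (x : G) (hx : x ∈ H) (hord : orderOf x ∣ Nat.card A) : x ∈ A := by
  haveI : (A.subgroupOf H).Normal := Subgroup.normal_subgroupOf_of_le_normalizer hn
  have h1 : orderOf (QuotientGroup.mk' (A.subgroupOf H) ⟨x, hx⟩) ∣ orderOf (⟨x, hx⟩ : ↥H) :=
    orderOf_map_dvd _ _
  have h2 : orderOf (⟨x, hx⟩ : ↥H) = orderOf x := by
    rw [← Subgroup.orderOf_coe]
  have h3 : orderOf (QuotientGroup.mk' (A.subgroupOf H) ⟨x, hx⟩) ∣ (A.subgroupOf H).index := by
    rw [Subgroup.index_eq_card]
    exact orderOf_dvd_natCard _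
  have h4 : orderOf (QuotientGroup.mk' (A.subgroupOf H) ⟨x, hx⟩) = 1 := by
    have hd := Nat.dvd_gcd (h1.trans (h2 ▸ hord)) h3
    have hg : Nat.gcd (Nat.card A) (A.relIndex H) = 1 := hcop
    rw [Subgroup.relIndex] at hg
    rw [hg] at hd
    exact Nat.dvd_one.mp hd
  have h5 := orderOf_eq_one_iff.mp h4
  have h6 : (⟨x, hx⟩ : ↥H) ∈ A.subgroupOf H := (QuotientGroup.eq_one_iff _).mp h5
  exact Subgroup.mem_subgroupOf.mp h6

/-- the normalizer of a Hall subgroup is self-normalizing -/
theorem normalizer_normalizer_hall {T : Type*} [Group T] [Finite T] (A : Subgroup T)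
    (hcop : (Nat.card A).Coprime A.index) :
    Subgroup.normalizer ((Subgroup.normalizer (A : Set T) : Subgroup T) : Set T) ≤
      Subgroup.normalizer (A : Set T) := by
  have hrel : (Nat.card A).Coprime (A.relIndex (Subgroup.normalizer (A : Set T))) := by
    refine Nat.Coprime.coprime_dvd_right ?_ hcop
    exact Dvd.intro _ (Subgroup.relIndex_mul_index (Subgroup.le_normalizer (H := A)))
  have key : ∀ g ∈ Subgroup.normalizer ((Subgroup.normalizer (A : Set T) : Subgroup T) : Set T),
      ∀ a ∈ A, g * a * g⁻¹ ∈ A := by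
    intro g hg a ha
    have h1 : g * a * g⁻¹ ∈ Subgroup.normalizer (A : Set T) :=
      (Subgroup.mem_normalizer_iff.mp hg a).mp (Subgroup.le_normalizer ha)
    refine mem_of_normal_hall A (Subgroup.normalizer (A : Set T)) le_rfl hrel _ h1 ?_
    have h2 : orderOf (g * a * g⁻¹) = orderOf a := by
      have := orderOf_injective (MulAut.conj g).toMonoidHom (MulAut.conj g).injective a
      simpa using this
    rw [h2]
    exact Subgroup.orderOf_dvd_natCard A ha
  intro g hg
  rw [Subgroup.mem_normalizer_iff]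
  intro a
  refine ⟨fun ha => key g hg a ha, fun ha => ?_⟩
  have := key g⁻¹ (Subgroup.inv_mem _ hg) _ ha
  have e : g⁻¹ * (g * a * g⁻¹) * g⁻¹⁻¹ = a := by group
  rw [e] at this
  exact this

theorem main : HallNilUniq.{u} := by
  intro G _ _ N A B hN hAN hBN hcard hcop
  haveI := hN
  have hcardA : Nat.card ↥(A.subgroupOf N) = Nat.card ↥A :=
    Nat.card_congr (Subgroup.subgroupOfEquivOfLe hAN).toEquiv
  have hcop' : (Nat.card ↥(A.subgroupOf N)).Coprime (A.subgroupOf N).index := by
    rw [hcardA]; exact hcop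
  have hnn := normalizer_normalizer_hall (A.subgroupOf N) hcop'
  have htop : Subgroup.normalizer ((A.subgroupOf N : Subgroup ↥N) : Set ↥N) = ⊤ := by
    by_contra hne
    have hlt := Group.normalizerCondition_of_isNilpotent (G := ↥N)
      (Subgroup.normalizer ((A.subgroupOf N : Subgroup ↥N) : Set ↥N)) (lt_top_iff_ne_top.mpr hne)
    exact absurd hnn (not_le_of_gt hlt)
  have hBA : B ≤ A := by
    intro b hb
    have hbN : b ∈ N := hBN hb
    have hmem : (⟨b, hbN⟩ : ↥N) ∈ A.subgroupOf N := by
      refine mem_of_normal_hall (A.subgroupOf N) ⊤ (by rw [htop]) ?_ _ (Subgroup.mem_top _) ?_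
      · rw [Subgroup.relIndex_top_right]; exact hcop'
      · rw [hcardA, hcard]
        have : orderOf (⟨b, hbN⟩ : ↥N) = orderOf b := by rw [← Subgroup.orderOf_coe]
        rw [this]
        exact Subgroup.orderOf_dvd_natCard B hb
    exact Subgroup.mem_subgroupOf.mp hmem
  exact (Subgroup.eq_of_le_of_card_ge hBA (le_of_eq hcard)).symm

end Cfsg.Agent.Lib.Helper6.HNHNU
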