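import Mathlib
import Cfsg.Agent.Lib.Helper45.OMiStmt
import Cfsg.Agent.Lib.Helper44.Gram
import Cfsg.Agent.Lib.Helper44.NegPairs

set_option autoImplicit false

/-! S5991 piece CLS1: two isometric nondegenerate spaces carrying a `c`- and a `c'`-structure have
`c c'` a square (discriminants).  The discriminant of `⟨c⟩ ⊥ hyperbolic` is read off from the
totally isotropic subspace `L ⊕ ⟨(ũ, 1)⟩` of `(V, B) ⊥ (F, -2c)`. -/

namespace Cfsg.Agent.Lib.Helper6.OMiCLS1

open Module

universe u

section abstract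

variable {F V : Type*} [Field F] [AddCommGroup V] [Module F V]

/-- a totally isotropic subspace of half the dimension forces `(-1)^k disc` to be a square
(same proof as `Helper14.TypeCrit.isSquare_of_isotropic`, restated here to keep the import
closure small) -/
theorem iso_sq [FiniteDimensional F V] (B : LinearMap.BilinForm F V)
    (hS : B.IsSymm) (k : ℕ) (hV : finrank F V = 2 * k)
    {ι : Type*} [Fintype ι] [DecidableEq ι] (b : Basis ι F V)
    (X : Submodule F V) (hX : finrank F X = k) (hti : ∀ x ∈ X, ∀ y ∈ X, B x y = 0) :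
    IsSquare ((-1 : F) ^ k * (LinearMap.BilinForm.toMatrix b B).det) := by
  obtain ⟨X', hc⟩ := Submodule.exists_isCompl X
  have hX' : finrank F X' = k := by
    have := Submodule.finrank_add_eq_of_isCompl hc
    omega
  let bX : Basis (Fin k) F X := Module.finBasisOfFinrankEq F X hX
  let bX' : Basis (Fin k) F X' := Module.finBasisOfFinrankEq F X' hX'
  let b₀ : Basis (Fin k ⊕ Fin k) F V :=
    (bX.prod bX').map (Submodule.prodEquivOfIsCompl X X' hc)
  have hl : ∀ i, b₀ (Sum.inl i) = (bX i : V) := by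
    intro i
    simp [b₀]
  have hr : ∀ i, b₀ (Sum.inr i) = (bX' i : V) := by
    intro i
    simp [b₀]
  let A : Matrix (Fin k) (Fin k) F := Matrix.of fun i j => B (bX i) (bX' j)
  let D : Matrix (Fin k) (Fin k) F := Matrix.of fun i j => B (bX' i) (bX' j)
  have hG : LinearMap.BilinForm.toMatrix b₀ B = Matrix.fromBlocks 0 A A.transpose D := by
    ext (i | i) (j | j)
    · rw [LinearMap.BilinForm.toMatrix_apply, hl, hl]
      simp only [Matrix.fromBlocks_apply₁₁, Matrix.zero_apply]
      exact hti _ (bX i).2 _ (bX j).2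
    · rw [LinearMap.BilinForm.toMatrix_apply, hl, hr]
      simp [A]
    · rw [LinearMap.BilinForm.toMatrix_apply, hr, hl]
      simp only [Matrix.fromBlocks_apply₂₁, Matrix.transpose_apply, A, Matrix.of_apply]
      exact hS.eq _ _
    · rw [LinearMap.BilinForm.toMatrix_apply, hr, hr]
      simp [D]
  have hdet : (-1 : F) ^ k * (LinearMap.BilinForm.toMatrix b₀ B).det = A.det ^ 2 := by
    have hmul : Matrix.fromBlocks 0 A A.transpose D *
        Matrix.fromBlocks (0 : Matrix (Fin k) (Fin k) F) 1 1 0 =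
        Matrix.fromBlocks A 0 D A.transpose := by
      rw [Matrix.fromBlocks_multiply]
      simp
    have h2 := congrArg Matrix.det hmul
    rw [Matrix.det_mul, Cfsg.Agent.Lib.Helper44.Gram.det_antidiag, Matrix.det_fromBlocks_zero₁₂,
      Matrix.det_transpose] at h2
    rw [hG, mul_comm, h2]
    ring
  obtain ⟨d, hd0, hd⟩ := Cfsg.Agent.Lib.Helper44.Gram.gram_det_change b b₀ B
  rw [hd]
  refine ⟨d * A.det, ?_⟩
  linear_combination d ^ 2 * hdet

/-- the form `B ⊥ ⟨t⟩` on `V × F` -/
def extB (B : LinearMap.BilinForm F V) (t : F) : LinearMap.BilinForm F (V × F) :=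
  B.compl₁₂ (LinearMap.fst F V F) (LinearMap.fst F V F) +
    t • (LinearMap.mul F F).compl₁₂ (LinearMap.snd F V F) (LinearMap.snd F V F)

theorem extB_apply (B : LinearMap.BilinForm F V) (t : F) (x y : V × F) :
    extB B t x y = B x.1 y.1 + t * (x.2 * y.2) := by
  simp [extB]

theorem gram_ext {ι : Type*} [Fintype ι] [DecidableEq ι] (b : Basis ι F V)
    (B : LinearMap.BilinForm F V) (t : F) :
    (LinearMap.BilinForm.toMatrix (b.prod (Basis.singleton Unit F)) (extB B t)).det =
      (LinearMap.BilinForm.toMatrix b B).det * t := by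
  have h : LinearMap.BilinForm.toMatrix (b.prod (Basis.singleton Unit F)) (extB B t) =
      Matrix.fromBlocks (LinearMap.BilinForm.toMatrix b B) 0 0 (Matrix.of fun _ _ => t) := by
    ext (i | i) (j | j) <;> simp [LinearMap.BilinForm.toMatrix_apply, extB_apply]
  rw [h, Matrix.det_fromBlocks_zero₂₁, Matrix.det_unique (Matrix.of fun (_ _ : Unit) => t)]
  simp

/-- the discriminant of a `c`-structure -/
theorem cstr_sq [FiniteDimensional F V] (Q : QuadraticForm F V) (k : ℕ)
    (hV : finrank F V = 2 * k + 1) {ι : Type*} [Fintype ι] [DecidableEq ι] (b : Basis ι F V)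
    (ut : V) (L : Submodule F V) (hL : finrank F L = k) (hL0 : ∀ v ∈ L, Q v = 0)
    (hLu : ∀ v ∈ L, QuadraticMap.polar Q v ut = 0) :
    IsSquare ((-1 : F) ^ (k + 1) *
      ((LinearMap.BilinForm.toMatrix b (QuadraticMap.polarBilin Q)).det * (-(2 * Q ut)))) := by
  let ψ : (L × F) →ₗ[F] (V × F) :=
    { toFun := fun p => ((p.1 : V) + p.2 • ut, p.2)
      map_add' := by
        intro p p'
        simp only [Prod.fst_add, Prod.snd_add, Submodule.coe_add, add_smul, Prod.mk_add_mk]
        congr 1
        abel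
      map_smul' := by
        intro c p
        simp only [Prod.smul_fst, Prod.smul_snd, Submodule.coe_smul, smul_eq_mul,
          RingHom.id_apply, Prod.smul_mk, smul_add, mul_smul] }
  have hψ : ∀ p : L × F, ψ p = ((p.1 : V) + p.2 • ut, p.2) := fun p => rfl
  have hψinj : Function.Injective ψ := by
    intro p p' h
    rw [hψ, hψ, Prod.mk.injEq] at h
    obtain ⟨h1, h2⟩ := h
    rw [h2] at h1
    exact Prod.ext (Subtype.ext (add_right_cancel h1)) h2
  have hX : finrank F (LinearMap.range ψ) = k + 1 := by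
    rw [LinearMap.finrank_range_of_inj hψinj, Module.finrank_prod, hL, Module.finrank_self]
  have hti : ∀ x ∈ LinearMap.range ψ, ∀ y ∈ LinearMap.range ψ,
      extB (QuadraticMap.polarBilin Q) (-(2 * Q ut)) x y = 0 := by
    rintro _ ⟨⟨l, s⟩, rfl⟩ _ ⟨⟨l', s'⟩, rfl⟩
    rw [extB_apply, hψ, hψ]
    have e1 : QuadraticMap.polarBilin Q (l : V) (l' : V) = 0 := by
      rw [QuadraticMap.polarBilin_apply_apply, QuadraticMap.polar,
        hL0 _ (L.add_mem l.2 l'.2), hL0 _ l.2, hL0 _ l'.2]
      simp
    have e2 : QuadraticMap.polarBilin Q (l : V) ut = 0 := by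
      rw [QuadraticMap.polarBilin_apply_apply]
      exact hLu _ l.2
    have e3 : QuadraticMap.polarBilin Q ut (l' : V) = 0 := by
      rw [QuadraticMap.polarBilin_apply_apply, QuadraticMap.polar_comm]
      exact hLu _ l'.2
    have e4 : QuadraticMap.polarBilin Q ut ut = 2 * Q ut := by
      rw [QuadraticMap.polarBilin_apply_apply, QuadraticMap.polar_self]
      simp [two_mul]
    simp only [map_add, map_smul, LinearMap.add_apply, LinearMap.smul_apply, smul_eq_mul, e1, e2,
      e3, e4]
    ring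
  have hsymm : (extB (QuadraticMap.polarBilin Q) (-(2 * Q ut))).IsSymm := by
    refine ⟨fun x y => ?_⟩
    rw [extB_apply, extB_apply, QuadraticMap.polarBilin_apply_apply,
      QuadraticMap.polarBilin_apply_apply, QuadraticMap.polar_comm]
    simp [mul_comm]
  have h := iso_sq (extB (QuadraticMap.polarBilin Q) (-(2 * Q ut))) hsymm (k + 1)
    (by rw [Module.finrank_prod, hV, Module.finrank_self]; ring)
    (b.prod (Basis.singleton Unit F)) (LinearMap.range ψ) hX hti
  rwa [gram_ext] at h

end abstract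

open Cfsg.Agent.Lib.Helper45.OMiStmt Cfsg.Agent.Lib.Helper44.NegPairs

theorem main : Cls1.{u} := by
  intro F _ _ hodd d m hd a b hab W₀ W W' hW hW' c c' hc hc'
  classical
  have h2 : (2 : F) ≠ 0 := by
    intro h
    have hchar : ringChar F = 2 :=
      CharP.ringChar_of_prime_eq_zero Nat.prime_two (by exact_mod_cast h)
    have h3 := FiniteField.even_card_of_char_two hchar
    rcases hodd with ⟨t, ht⟩
    omega
  obtain ⟨hm, hnd, ⟨e₁, he₁⟩⟩ := hW
  obtain ⟨hm', hnd', ⟨e₂, he₂⟩⟩ := hW'
  obtain ⟨ut, hutW, hutc, L, hLW, hL0, hLu, hLdim⟩ := hc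
  obtain ⟨ut', hutW', hutc', L', hLW', hL0', hLu', hLdim'⟩ := hc'
  have hQW : ∀ w : W, ((minusQ (d - 1) F a b).comp W.subtype) w =
      Cfsg.quadFormMinus (d - 1) F a b (w : M d → F) := fun w => rfl
  have hQW' : ∀ w : W', ((minusQ (d - 1) F a b).comp W'.subtype) w =
      Cfsg.quadFormMinus (d - 1) F a b (w : M d → F) := fun w => rfl
  have he : ∀ w : W, ((minusQ (d - 1) F a b).comp W'.subtype) ((e₁.trans e₂.symm) w) =
      ((minusQ (d - 1) F a b).comp W.subtype) w := by
    intro w
    rw [hQW, hQW']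
    have h5 := he₂ (e₂.symm (e₁ w))
    rw [LinearEquiv.apply_symm_apply] at h5
    rw [LinearEquiv.trans_apply, ← h5, he₁]
  have hk' : finrank F L' = finrank F L := by omega
  -- Gram matrices agree
  have hG : LinearMap.BilinForm.toMatrix ((Module.finBasis F W).map (e₁.trans e₂.symm))
        (QuadraticMap.polarBilin ((minusQ (d - 1) F a b).comp W'.subtype)) =
      LinearMap.BilinForm.toMatrix (Module.finBasis F W)
        (QuadraticMap.polarBilin ((minusQ (d - 1) F a b).comp W.subtype)) := by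
    ext i j
    simp only [LinearMap.BilinForm.toMatrix_apply, Basis.map_apply,
      QuadraticMap.polarBilin_apply_apply]
    rw [QuadraticMap.polar, QuadraticMap.polar, ← map_add, he, he, he]
  -- the two discriminants
  have s1 := cstr_sq ((minusQ (d - 1) F a b).comp W.subtype) (finrank F L) (by omega)
    (Module.finBasis F W) ⟨ut, hutW⟩ (L.comap W.subtype)
    (LinearEquiv.finrank_eq (Submodule.comapSubtypeEquivOfLe hLW))
    (fun v hv => by rw [hQW]; exact hL0 _ hv)
    (fun v hv => hLu _ hv)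
  have s2 := cstr_sq ((minusQ (d - 1) F a b).comp W'.subtype) (finrank F L) (by omega)
    ((Module.finBasis F W).map (e₁.trans e₂.symm)) ⟨ut', hutW'⟩ (L'.comap W'.subtype)
    ((LinearEquiv.finrank_eq (Submodule.comapSubtypeEquivOfLe hLW')).trans hk')
    (fun v hv => by rw [hQW']; exact hL0' _ hv)
    (fun v hv => hLu' _ hv)
  rw [hG] at s2
  rw [hQW, hutc] at s1
  rw [hQW', hutc'] at s2
  -- nondegeneracy: the Gram determinant is nonzero
  have hD : (LinearMap.BilinForm.toMatrix (Module.finBasis F W)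
      (QuadraticMap.polarBilin ((minusQ (d - 1) F a b).comp W.subtype))).det ≠ 0 := by
    rw [← LinearMap.BilinForm.nondegenerate_iff_det_ne_zero]
    constructor
    · intro x hx
      by_contra hx0
      have hx1 : (x : M d → F) ≠ 0 := fun h => hx0 (Subtype.ext h)
      obtain ⟨y, hyW, hy⟩ := (hnd x.1 x.2 hx1).2
      exact hy (hx ⟨y, hyW⟩)
    · intro x hx
      by_contra hx0
      have hx1 : (x : M d → F) ≠ 0 := fun h => hx0 (Subtype.ext h)
      obtain ⟨y, hyW, hy⟩ := (hnd x.1 x.2 hx1).1
      exact hy (hx ⟨y, hyW⟩)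
  obtain ⟨r1, h1⟩ := s1
  obtain ⟨r2, h2'⟩ := s2
  have hε : ((-1 : F) ^ (finrank F L + 1)) * ((-1 : F) ^ (finrank F L + 1)) = 1 := by
    rw [← mul_pow]
    simp
  set D := (LinearMap.BilinForm.toMatrix (Module.finBasis F W)
      (QuadraticMap.polarBilin ((minusQ (d - 1) F a b).comp W.subtype))).det with hDdef
  have hD2 : (2 * D) ≠ 0 := mul_ne_zero h2 hD
  refine ⟨r1 * r2 / (2 * D), ?_⟩
  rw [div_mul_div_comm, eq_div_iff (mul_ne_zero hD2 hD2)]
  linear_combination ((-1 : F) ^ (finrank F L + 1) * (D * -(2 * c'))) * h1 +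
    (r1 * r1) * h2' + (-(4 * c * c' * D * D)) * hε

end Cfsg.Agent.Lib.Helper6.OMiCLS1
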