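import Mathlib
import Cfsg.Agent.Lib.Helper40.HPStmt
import Cfsg.Agent.Lib.Helper2.NegSqGen
import Cfsg.Agent.Lib.Helper44.NegPairs
import Cfsg.Agent.Lib.Helper76.S8Glue
import Cfsg.Agent.Lib.Helper6.OMiCLS1

set_option autoImplicit false

/-! S5974 piece NEGSQNOHYP: `q ≡ 3 (mod 4)`, `m ≡ 2 (mod 4)`: an isometry with `x * x = -1`
stabilises no hyperbolic `m`-space (the Gram determinant of an invariant nondegenerate space is a
square, that of a hyperbolic space of dimension `2k` is `(-1)^k` times a square). -/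

namespace Cfsg.Agent.Lib.Helper6.HPNEGSQNOHYP

open Module
open scoped Matrix
open Cfsg.Agent.Lib.Helper40.HPStmt Cfsg.Agent.Lib.Helper44.NegPairs
open Cfsg.Agent.Lib.Helper94.OPStmt (P FxP NDegP StabP NP)
open Cfsg.Agent.Lib.Helper76.S8Glue (mem_iso)

universe u

theorem main : NegSqNoHyp.{u} := by
  intro F _ _ hq d m hm x hx hxx W hW hstab
  classical
  obtain ⟨hfin, hnd, U, hUW, hUdim, hU0⟩ := hW
  have h2 : (2 : F) ≠ 0 := by
    intro h
    have hchar : ringChar F = 2 :=
      CharP.ringChar_of_prime_eq_zero Nat.prime_two (by exact_mod_cast h)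
    have h3 := FiniteField.even_card_of_char_two hchar
    omega
  have hxi := (mem_iso _ x).1 hx
  have hmap : ∀ w ∈ W, Matrix.toLin' (x : Matrix (P d) (P d) F) w ∈ W :=
    fun w hw => hstab ⟨w, hw, rfl⟩
  have hf : ∀ w : W, ((((Matrix.toLin' (x : Matrix (P d) (P d) F)).restrict hmap) w : W) :
      P d → F) = (x : Matrix (P d) (P d) F).mulVec (w : P d → F) := by
    intro w
    rw [LinearMap.restrict_apply]
    exact Matrix.toLin'_apply _ _
  have hfQ : ∀ w : W, ((plusQ d F).comp W.subtype)
      (((Matrix.toLin' (x : Matrix (P d) (P d) F)).restrict hmap) w) =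
      ((plusQ d F).comp W.subtype) w := by
    intro w
    show Cfsg.quadFormPlus d F
      ((((Matrix.toLin' (x : Matrix (P d) (P d) F)).restrict hmap) w : W) : P d → F) =
      Cfsg.quadFormPlus d F (w : P d → F)
    rw [hf]
    exact hxi _
  have hff : ((Matrix.toLin' (x : Matrix (P d) (P d) F)).restrict hmap) ∘ₗ
      ((Matrix.toLin' (x : Matrix (P d) (P d) F)).restrict hmap) =
      (-1 : F) • (LinearMap.id : W →ₗ[F] W) := by
    apply LinearMap.ext
    intro w
    apply Subtype.ext
    rw [LinearMap.comp_apply, hf, hf, Matrix.mulVec_mulVec, hxx, Matrix.neg_mulVec,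
      Matrix.one_mulVec]
    simp
  -- Gram matrix and the matrix of `x` on `W`
  have hSt : (LinearMap.BilinForm.toMatrix (Module.finBasis F W)
      (QuadraticMap.polarBilin ((plusQ d F).comp W.subtype)))ᵀ =
      LinearMap.BilinForm.toMatrix (Module.finBasis F W)
      (QuadraticMap.polarBilin ((plusQ d F).comp W.subtype)) := by
    ext i j
    simp only [Matrix.transpose_apply, LinearMap.BilinForm.toMatrix_apply,
      QuadraticMap.polarBilin_apply_apply]
    exact QuadraticMap.polar_comm _ _ _
  have hdet : (LinearMap.BilinForm.toMatrix (Module.finBasis F W)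
      (QuadraticMap.polarBilin ((plusQ d F).comp W.subtype))).det ≠ 0 := by
    rw [← LinearMap.BilinForm.nondegenerate_iff_det_ne_zero]
    constructor
    · intro v hv
      by_contra hv0
      have hv1 : (v : P d → F) ≠ 0 := fun h => hv0 (Subtype.ext h)
      obtain ⟨y, hyW, hy⟩ := hnd v.1 v.2 hv1
      exact hy (hv ⟨y, hyW⟩)
    · intro v hv
      by_contra hv0
      have hv1 : (v : P d → F) ≠ 0 := fun h => hv0 (Subtype.ext h)
      obtain ⟨y, hyW, hy⟩ := hnd v.1 v.2 hv1
      apply hy
      rw [QuadraticMap.polar_comm]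
      exact hv ⟨y, hyW⟩
  have hiso : (LinearMap.toMatrix (Module.finBasis F W) (Module.finBasis F W)
        ((Matrix.toLin' (x : Matrix (P d) (P d) F)).restrict hmap))ᵀ *
      LinearMap.BilinForm.toMatrix (Module.finBasis F W)
        (QuadraticMap.polarBilin ((plusQ d F).comp W.subtype)) *
      LinearMap.toMatrix (Module.finBasis F W) (Module.finBasis F W)
        ((Matrix.toLin' (x : Matrix (P d) (P d) F)).restrict hmap) =
      LinearMap.BilinForm.toMatrix (Module.finBasis F W)
        (QuadraticMap.polarBilin ((plusQ d F).comp W.subtype)) := by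
    rw [← LinearMap.BilinForm.toMatrix_comp (Module.finBasis F W) (Module.finBasis F W)]
    congr 1
    ext u v
    simp only [LinearMap.BilinForm.comp_apply, QuadraticMap.polarBilin_apply_apply]
    rw [QuadraticMap.polar, QuadraticMap.polar, ← map_add, hfQ, hfQ, hfQ]
  have hsq : LinearMap.toMatrix (Module.finBasis F W) (Module.finBasis F W)
        ((Matrix.toLin' (x : Matrix (P d) (P d) F)).restrict hmap) *
      LinearMap.toMatrix (Module.finBasis F W) (Module.finBasis F W)
        ((Matrix.toLin' (x : Matrix (P d) (P d) F)).restrict hmap) = -1 := by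
    rw [← LinearMap.toMatrix_comp (Module.finBasis F W) (Module.finBasis F W)
      (Module.finBasis F W), hff, map_smul, LinearMap.toMatrix_id, neg_smul, one_smul]
  have h1 := Cfsg.Agent.Lib.Helper2.NegSqGen.isSquare_det h2 _ _ hSt hdet hiso hsq
  -- hyperbolic
  have hk : finrank F W = 2 * finrank F U := by omega
  have h3 := Cfsg.Agent.Lib.Helper6.OMiCLS1.iso_sq
    (QuadraticMap.polarBilin ((plusQ d F).comp W.subtype))
    ⟨fun u v => by
      simp only [QuadraticMap.polarBilin_apply_apply]
      exact QuadraticMap.polar_comm _ _ _⟩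
    (finrank F U) hk (Module.finBasis F W) (U.comap W.subtype)
    (LinearEquiv.finrank_eq (Submodule.comapSubtypeEquivOfLe hUW))
    (fun u hu v hv => by
      have e1 : ((plusQ d F).comp W.subtype) (u + v) = 0 := hU0 _ (U.add_mem hu hv)
      have e2 : ((plusQ d F).comp W.subtype) u = 0 := hU0 _ hu
      have e3 : ((plusQ d F).comp W.subtype) v = 0 := hU0 _ hv
      rw [QuadraticMap.polarBilin_apply_apply, QuadraticMap.polar, e1, e2, e3]
      simp)
  have hodd : Odd (finrank F U) := by
    rw [Nat.odd_iff]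
    omega
  rw [hodd.neg_one_pow] at h3
  have h4 : IsSquare (-1 : F) := by
    obtain ⟨r, hr⟩ := h1
    obtain ⟨s, hs⟩ := h3
    have hr0 : r ≠ 0 := by
      rintro rfl
      rw [mul_zero] at hr
      exact hdet hr
    refine ⟨s / r, ?_⟩
    rw [div_mul_div_comm, eq_div_iff (mul_ne_zero hr0 hr0)]
    linear_combination hr + hs
  exact (FiniteField.isSquare_neg_one_iff.1 h4) hq

end Cfsg.Agent.Lib.Helper6.HPNEGSQNOHYP
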