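import Mathlib
import Cfsg.Agent.Lib.Helper69.J1Stmt

set_option autoImplicit false

/-! Piece CENT of S4274: an element of order 19 centralizes every normal subgroup of order
dividing 9240. -/

namespace Cfsg.Agent.Lib.Helper6.J1CENT

universe u

open Cfsg.Agent.Lib.Helper69.J1Stmt

open scoped Pointwise

theorem prime_pow_aux (q k : ℕ) (hq2 : ¬ q ^ 2 ∣ 9240) (hq : q < 19) (h : q ^ k ∣ 9240) :
    q ^ k < 19 := by
  have hk : k ≤ 1 := by
    by_contra hcon
    exact hq2 ((pow_dvd_pow q (by omega)).trans h)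
  interval_cases k
  · simp
  · simpa using hq

theorem prime_pow_dvd_9240 (r k : ℕ) (hr : r.Prime) (h : r ^ k ∣ 9240) : r ^ k < 19 := by
  rcases Nat.eq_zero_or_pos k with rfl | hk
  · simp
  have hr9240 : r ∣ 9240 := (dvd_pow_self r hk.ne').trans h
  have h9240 : (9240 : ℕ) = 2 ^ 3 * 3 * 5 * 7 * 11 := by norm_num
  rw [h9240] at hr9240
  rcases (Nat.Prime.dvd_mul hr).mp hr9240 with h1 | h1
  · rcases (Nat.Prime.dvd_mul hr).mp h1 with h2 | h2
    · rcases (Nat.Prime.dvd_mul hr).mp h2 with h3 | h3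
      · rcases (Nat.Prime.dvd_mul hr).mp h3 with h4 | h4
        · have h2' := (Nat.prime_dvd_prime_iff_eq hr Nat.prime_two).mp (hr.dvd_of_dvd_pow h4)
          subst h2'
          have hk3 : k ≤ 3 := by
            by_contra hcon
            have h16 : 2 ^ 4 ∣ 9240 := (pow_dvd_pow 2 (by omega)).trans h
            norm_num at h16
          interval_cases k <;> norm_num
        · have h3' := (Nat.prime_dvd_prime_iff_eq hr Nat.prime_three).mp h4
          subst h3'
          exact prime_pow_aux 3 k (by norm_num) (by norm_num) h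
      · have h5' := (Nat.prime_dvd_prime_iff_eq hr Nat.prime_five).mp h3
        subst h5'
        exact prime_pow_aux 5 k (by norm_num) (by norm_num) h
    · have h7' := (Nat.prime_dvd_prime_iff_eq hr (by norm_num)).mp h2
      subst h7'
      exact prime_pow_aux 7 k (by norm_num) (by norm_num) h
  · have h11' := (Nat.prime_dvd_prime_iff_eq hr (by norm_num)).mp h1
    subst h11'
    exact prime_pow_aux 11 k (by norm_num) (by norm_num) h

theorem perm_eq_one_of_small {α : Type*} [Finite α] (σ : Equiv.Perm α) (h19 : σ ^ 19 = 1)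
    (hcard : Nat.card α < 19) : σ = 1 := by
  have h1 : orderOf σ ∣ 19 := orderOf_dvd_of_pow_eq_one h19
  have h2 : orderOf σ ∣ Nat.card (Equiv.Perm α) := orderOf_dvd_natCard σ
  have h3 : Nat.card (Equiv.Perm α) = (Nat.card α).factorial := by
    classical
    have : Fintype α := Fintype.ofFinite α
    rw [Nat.card_eq_fintype_card, Fintype.card_perm, Nat.card_eq_fintype_card]
  rcases (Nat.dvd_prime (by norm_num : Nat.Prime 19)).mp h1 with h | h
  · exact orderOf_eq_one_iff.mp h
  · exfalso
    rw [h, h3] at h2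
    have := ((by norm_num : Nat.Prime 19).dvd_factorial).mp h2
    omega

/-- an automorphism of 19-th power one of a group of order less than 19 fixing a subgroup `R`
of order `< 19` setwise fixes it pointwise. -/
theorem fixes_pointwise {M : Type*} [Group M] (φ : MulAut M) (hφ19 : φ ^ 19 = 1)
    (R : Subgroup M) [Finite R] (hR : ∀ m ∈ R, φ m ∈ R) (hR' : ∀ m ∈ R, φ⁻¹ m ∈ R)
    (hcard : Nat.card R < 19) : ∀ m ∈ R, φ m = m := by
  let σ : Equiv.Perm ↥R :=
    { toFun := fun m => ⟨φ m.1, hR m.1 m.2⟩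
      invFun := fun m => ⟨φ⁻¹ m.1, hR' m.1 m.2⟩
      left_inv := by
        intro m
        apply Subtype.ext
        change φ⁻¹ (φ m.1) = m.1
        rw [← MulAut.mul_apply, inv_mul_cancel, MulAut.one_apply]
      right_inv := by
        intro m
        apply Subtype.ext
        change φ (φ⁻¹ m.1) = m.1
        rw [← MulAut.mul_apply, mul_inv_cancel, MulAut.one_apply] }
  have hpow : ∀ (k : ℕ) (m : ↥R), (((σ ^ k) m : ↥R) : M) = (φ ^ k) m.1 := by
    intro k
    induction k with
    | zero => intro m; simp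
    | succ k ih =>
      intro m
      rw [pow_succ, pow_succ, Equiv.Perm.mul_apply, MulAut.mul_apply, ih]
      rfl
  have hσ19 : σ ^ 19 = 1 := by
    ext m
    rw [hpow 19 m, hφ19]
    simp
  have hσ : σ = 1 := perm_eq_one_of_small σ hσ19 hcard
  intro m hm
  have h1 : σ ⟨m, hm⟩ = ⟨m, hm⟩ := by rw [hσ]; rfl
  exact congrArg Subtype.val h1

theorem main : Cent.{u} := by
  intro G _ _ N hN hcard x hx n hn
  have := hN
  let φ : MulAut ↥N := MulAut.conjNormal x
  have hφ19 : φ ^ 19 = 1 := by
    change (MulAut.conjNormal x : MulAut ↥N) ^ 19 = 1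
    rw [← map_pow, ← hx, pow_orderOf_eq_one, map_one]
  let C : Subgroup ↥N :=
    { carrier := {m | φ m = m}
      mul_mem' := by
        intro a b ha hb
        simp only [Set.mem_ofPred_eq] at *
        rw [map_mul, ha, hb]
      one_mem' := by simp
      inv_mem' := by
        intro a ha
        simp only [Set.mem_ofPred_eq] at *
        rw [map_inv, ha] }
  have hCtop : C = ⊤ := by
    rw [← Subgroup.index_eq_one, Nat.eq_one_iff_not_exists_prime_dvd]
    intro r hr hrdvd
    have : Fact r.Prime := ⟨hr⟩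
    have : Fact (Nat.Prime 19) := ⟨by norm_num⟩
    obtain ⟨R, hR⟩ : ∃ R : Sylow r ↥N, φ • R = R := by
      have hZ : IsPGroup 19 ↥(Subgroup.zpowers φ) := by
        rintro ⟨z, hz⟩
        refine ⟨1, ?_⟩
        obtain ⟨k, rfl⟩ := Subgroup.mem_zpowers_iff.mp hz
        apply Subtype.ext
        simp only [pow_one, Subgroup.coe_pow, Subgroup.coe_one]
        rw [← zpow_natCast, ← zpow_mul, mul_comm, zpow_mul, zpow_natCast, hφ19, one_zpow]
      have hnd : ¬ 19 ∣ Nat.card (Sylow r ↥N) := by
        intro h19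
        obtain ⟨R0⟩ : Nonempty (Sylow r ↥N) := inferInstance
        have h1 : Nat.card (Sylow r ↥N) ∣ Nat.card ↥N :=
          (Sylow.card_dvd_index R0).trans (Subgroup.index_dvd_card _)
        have h2 : 19 ∣ 9240 := h19.trans (h1.trans hcard)
        norm_num at h2
      obtain ⟨R, hR⟩ := hZ.nonempty_fixed_point_of_prime_not_dvd_card (Sylow r ↥N) hnd
      exact ⟨R, hR ⟨φ, Subgroup.mem_zpowers φ⟩⟩
    have hR' : φ⁻¹ • R = R := by rw [inv_smul_eq_iff, hR]
    have hmem : ∀ m ∈ (R : Subgroup ↥N), φ m ∈ (R : Subgroup ↥N) := by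
      intro m hm
      have h1 : φ • m ∈ φ • (R : Subgroup ↥N) := Subgroup.smul_mem_pointwise_smul m φ _ hm
      rw [← Sylow.pointwise_smul_def, hR] at h1
      exact h1
    have hmem' : ∀ m ∈ (R : Subgroup ↥N), φ⁻¹ m ∈ (R : Subgroup ↥N) := by
      intro m hm
      have h1 : φ⁻¹ • m ∈ φ⁻¹ • (R : Subgroup ↥N) := Subgroup.smul_mem_pointwise_smul m φ⁻¹ _ hm
      rw [← Sylow.pointwise_smul_def, hR'] at h1
      exact h1
    have hRcard : Nat.card (R : Subgroup ↥N) < 19 := by
      obtain ⟨k, hk⟩ := R.2.exists_card_eq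
      rw [hk]
      apply prime_pow_dvd_9240 r k hr
      rw [← hk]
      exact ((R : Subgroup ↥N).card_subgroup_dvd_card).trans hcard
    have hRC : (R : Subgroup ↥N) ≤ C := fun m hm =>
      fixes_pointwise φ hφ19 (R : Subgroup ↥N) hmem hmem' hRcard m hm
    exact R.not_dvd_index (hrdvd.trans (Subgroup.index_dvd_of_le hRC))
  have hnC : (⟨n, hn⟩ : ↥N) ∈ C := by rw [hCtop]; exact Subgroup.mem_top _
  have h1 : φ ⟨n, hn⟩ = ⟨n, hn⟩ := hnC
  have h2 : x * n * x⁻¹ = n := congrArg Subtype.val h1
  calc x * n = x * n * x⁻¹ * x := by group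
    _ = n * x := by rw [h2]

end Cfsg.Agent.Lib.Helper6.J1CENT
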