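import Mathlib
import Cfsg.Agent.Lib.Helper69.J1Stmt

set_option autoImplicit false

/-! Piece STEP of S4274: the inductive step (a non-simple group of order `19 m`, `m ∣ 9240`,
has a normal Sylow 19-subgroup, given the claim for the proper divisors of `m`). -/

namespace Cfsg.Agent.Lib.Helper6.J1STEP

universe u

open Cfsg.Agent.Lib.Helper69.J1Stmt

/-- a normal `p`-subgroup lies in every Sylow `p`-subgroup. -/
theorem normal_le_sylow' {p : ℕ} [Fact p.Prime] {H : Type u} [Group H] [Finite H]
    (N : Subgroup H) (hN : N.Normal) (hNp : IsPGroup p ↥N) (P : Sylow p H) :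
    N ≤ (P : Subgroup H) := by
  obtain ⟨Q, hQ⟩ := hNp.exists_le_sylow
  obtain ⟨g, hg⟩ := MulAction.exists_smul_eq H Q P
  intro x hx
  have h1 : g⁻¹ * x * g⁻¹⁻¹ ∈ N := hN.conj_mem x hx g⁻¹
  have h2 : g⁻¹ * x * g⁻¹⁻¹ ∈ (Q : Subgroup H) := hQ h1
  rw [← hg, Sylow.coe_subgroup_smul, Subgroup.mem_pointwise_smul_iff_inv_smul_mem]
  simpa [MulAut.smul_def, MulAut.conj_apply] using h2

theorem sylow_card {H : Type u} [Group H] [Finite H] [Fact (Nat.Prime 19)] {m : ℕ}
    (hcard : Nat.card H = 19 * m) (hm : ¬ 19 ∣ m) (P : Sylow 19 H) :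
    Nat.card (P : Subgroup H) = 19 := by
  have hm0 : m ≠ 0 := by rintro rfl; exact hm (dvd_zero _)
  rw [Sylow.card_eq_multiplicity, hcard, Nat.factorization_mul (by norm_num) hm0]
  simp [Nat.factorization_eq_zero_of_not_dvd hm,
    Nat.Prime.factorization_self (by norm_num : Nat.Prime 19)]

theorem main : Step.{u} := by
  intro hCent m hm9240 hind H _ _ hcard
  have : Fact (Nat.Prime 19) := ⟨by norm_num⟩
  have h19m : ¬ 19 ∣ m := fun h => by
    have h2 : 19 ∣ 9240 := h.trans hm9240
    norm_num at h2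
  have hm0 : m ≠ 0 := by rintro rfl; exact h19m (dvd_zero _)
  by_cases hsimple : IsSimpleGroup H
  · exact Or.inl hsimple
  right
  have hnt : Nontrivial H := by
    rw [← Finite.one_lt_card_iff_nontrivial, hcard]
    have : 0 < m := Nat.pos_of_ne_zero hm0
    omega
  obtain ⟨N, hN, hNbot, hNtop⟩ : ∃ N : Subgroup H, N.Normal ∧ N ≠ ⊥ ∧ N ≠ ⊤ := by
    by_contra hcon
    apply hsimple
    refine { exists_pair_ne := hnt.exists_pair_ne, eq_bot_or_eq_top_of_normal := ?_ }
    intro N hN
    by_contra hN2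
    exact hcon ⟨N, hN, fun h => hN2 (Or.inl h), fun h => hN2 (Or.inr h)⟩
  have hNdvd : Nat.card N ∣ 19 * m := hcard ▸ N.card_subgroup_dvd_card
  intro P
  have hPcard : Nat.card (P : Subgroup H) = 19 := sylow_card hcard h19m P
  by_cases h19N : 19 ∣ Nat.card N
  · -- case (a): `19 ∣ |N|`
    obtain ⟨m', hm'⟩ := h19N
    have hm'dvd : m' ∣ m := by
      rw [hm'] at hNdvd
      exact (Nat.mul_dvd_mul_iff_left (by norm_num)).mp hNdvd
    have hm'lt : m' < m :=
      lt_of_le_of_ne (Nat.le_of_dvd (Nat.pos_of_ne_zero hm0) hm'dvd)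
        (fun h => hNtop (Subgroup.eq_top_of_card_eq N (by rw [hm', hcard, h])))
    have h19m' : ¬ 19 ∣ m' := fun h => h19m (h.trans hm'dvd)
    have hclaim := hind m' hm'dvd hm'lt ↥N hm'
    obtain ⟨Q⟩ : Nonempty (Sylow 19 ↥N) := inferInstance
    have hQn : (Q : Subgroup ↥N).Normal := hclaim Q
    have hQc : (Q : Subgroup ↥N).Characteristic := Sylow.characteristic_of_normal Q hQn
    have := hN
    have hmapn : ((Q : Subgroup ↥N).map N.subtype).Normal :=
      ConjAct.normal_of_characteristic_of_normal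
    have hmapp : IsPGroup 19 ↥((Q : Subgroup ↥N).map N.subtype) := Q.2.map N.subtype
    have hle : (Q : Subgroup ↥N).map N.subtype ≤ (P : Subgroup H) :=
      normal_le_sylow' _ hmapn hmapp P
    have hQcard : Nat.card ((Q : Subgroup ↥N).map N.subtype) = 19 := by
      rw [Subgroup.card_map_of_injective N.subtype_injective]
      exact sylow_card hm' h19m' Q
    have heq : (Q : Subgroup ↥N).map N.subtype = (P : Subgroup H) :=
      Subgroup.eq_of_le_of_card_ge hle (by rw [hQcard, hPcard])
    rw [← heq]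
    exact hmapn
  · -- case (b): `19 ∤ |N|`
    have hcop : Nat.Coprime (Nat.card N) 19 :=
      ((Nat.Prime.coprime_iff_not_dvd (by norm_num)).mpr h19N).symm
    have hNm : Nat.card N ∣ m := hcop.dvd_of_dvd_mul_left hNdvd
    obtain ⟨m'', hm''⟩ := hNm
    have hNpos : 0 < Nat.card N := Nat.card_pos
    have hN1 : 1 < Nat.card N := (Subgroup.one_lt_card_iff_ne_bot N).mpr hNbot
    have hm''pos : 0 < m'' := by
      rcases Nat.eq_zero_or_pos m'' with h | h
      · rw [h, mul_zero] at hm''; exact absurd hm'' hm0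
      · exact h
    have hcardQ : Nat.card (H ⧸ N) = 19 * m'' := by
      have h1 := Subgroup.card_eq_card_quotient_mul_card_subgroup N
      rw [hcard, hm''] at h1
      have h2 : Nat.card N * (19 * m'') = Nat.card N * Nat.card (H ⧸ N) := by
        rw [mul_comm (Nat.card N) (Nat.card (H ⧸ N)), ← h1]; ring
      exact (Nat.eq_of_mul_eq_mul_left hNpos h2).symm
    have hm''dvd : m'' ∣ m := ⟨Nat.card N, by rw [hm'', mul_comm]⟩
    have hm''lt : m'' < m := by
      rw [hm'']
      nlinarith
    have := hN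
    have hclaim := hind m'' hm''dvd hm''lt (H ⧸ N) hcardQ
    have hsurj : Function.Surjective (QuotientGroup.mk' N) := QuotientGroup.mk'_surjective N
    have hnorm : ((P.mapSurjective hsurj : Sylow 19 (H ⧸ N)) : Subgroup (H ⧸ N)).Normal :=
      hclaim (P.mapSurjective hsurj)
    have hpow19 : ∀ y ∈ (P : Subgroup H), y ^ 19 = 1 := by
      intro y hy
      have h1 : (⟨y, hy⟩ : (P : Subgroup H)) ^ Nat.card (P : Subgroup H) = 1 := pow_card_eq_one'
      rw [hPcard] at h1
      have h2 := congrArg Subtype.val h1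
      simpa using h2
    constructor
    intro y hy g
    have h1 : (QuotientGroup.mk' N g) * (QuotientGroup.mk' N y) * (QuotientGroup.mk' N g)⁻¹ ∈
        ((P.mapSurjective hsurj : Sylow 19 (H ⧸ N)) : Subgroup (H ⧸ N)) :=
      hnorm.conj_mem _ (by rw [Sylow.coe_mapSurjective]; exact Subgroup.mem_map_of_mem _ hy) _
    rw [Sylow.coe_mapSurjective, Subgroup.mem_map] at h1
    obtain ⟨p, hp, hpz⟩ := h1
    have hn : p⁻¹ * (g * y * g⁻¹) ∈ N := by
      rw [← QuotientGroup.eq]
      simpa using hpz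
    obtain ⟨n, hn_def⟩ : ∃ n, n = p⁻¹ * (g * y * g⁻¹) := ⟨_, rfl⟩
    rw [← hn_def] at hn
    have hz : g * y * g⁻¹ = p * n := by rw [hn_def]; group
    have hy19 : y ^ 19 = 1 := hpow19 y hy
    have hp19 : p ^ 19 = 1 := hpow19 p hp
    have hcomm : Commute p n := by
      by_cases hp1 : p = 1
      · rw [hp1]; exact Commute.one_left n
      · have hop : orderOf p = 19 := by
          have hd : orderOf p ∣ 19 := orderOf_dvd_of_pow_eq_one hp19
          rcases (Nat.dvd_prime (by norm_num)).mp hd with h | h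
          · exact absurd (orderOf_eq_one_iff.mp h) hp1
          · exact h
        exact hCent H N hN ((Dvd.intro m'' hm''.symm).trans hm9240) p hop n hn
    have hz19 : (p * n) ^ 19 = 1 := by
      rw [← hz, conj_pow, hy19]; group
    rw [hcomm.mul_pow, hp19, one_mul] at hz19
    have hn1 : n = 1 := by
      have hd : orderOf n ∣ 19 := orderOf_dvd_of_pow_eq_one hz19
      have hd2 : orderOf n ∣ Nat.card N := Subgroup.orderOf_dvd_natCard N hn
      rcases (Nat.dvd_prime (by norm_num)).mp hd with h | h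
      · exact orderOf_eq_one_iff.mp h
      · exact absurd (h ▸ hd2) h19N
    rw [hz, hn1, mul_one]
    exact hp

end Cfsg.Agent.Lib.Helper6.J1STEP
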