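import Mathlib
import Cfsg.Agent.Lib.Helper69.J1Stmt

set_option autoImplicit false

/-! Piece SUM of S4274: disjoint sets of elements of order divisible by `p`. -/

namespace Cfsg.Agent.Lib.Helper6.J1SUM

universe u

open Cfsg.Agent.Lib.Helper69.J1Stmt

theorem main : Cfsg.Agent.Lib.Helper69.J1Stmt.Sum.{u} := by
  intro G _ _ S hS hdisj
  classical
  have : Fintype G := Fintype.ofFinite G
  have hcard : ∀ p, Nat.card {g : G // p ∣ orderOf g} =
      (Finset.univ.filter (fun g : G => p ∣ orderOf g)).card := by
    intro p
    rw [Nat.card_eq_fintype_card, Fintype.card_subtype]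
  simp_rw [hcard]
  rw [← Finset.card_biUnion]
  · have hsub : S.biUnion (fun p => Finset.univ.filter (fun g : G => p ∣ orderOf g)) ⊆
        Finset.univ.erase 1 := by
      intro g hg
      simp only [Finset.mem_biUnion, Finset.mem_filter, Finset.mem_univ, true_and] at hg
      obtain ⟨p, hp, hpg⟩ := hg
      simp only [Finset.mem_erase, Finset.mem_univ, and_true]
      rintro rfl
      rw [orderOf_one] at hpg
      exact (hS p hp).one_lt.ne' (Nat.dvd_one.mp hpg)
    have h1 := Finset.card_le_card hsub
    rw [Finset.card_erase_of_mem (Finset.mem_univ _), Finset.card_univ] at h1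
    have hpos : 0 < Fintype.card G := Fintype.card_pos
    rw [Nat.card_eq_fintype_card]
    omega
  · intro p hp q hq hpq
    rw [Function.onFun, Finset.disjoint_left]
    intro g hg1 hg2
    simp only [Finset.mem_filter, Finset.mem_univ, true_and] at hg1 hg2
    exact hdisj p hp q hq hpq g ⟨hg1, hg2⟩

end Cfsg.Agent.Lib.Helper6.J1SUM
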