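import Mathlib
import Cfsg.Agent.Lib.Helper46.PsuStmt

set_option autoImplicit false

/-!
# Piece CIT of S5172: a strongly closed subgroup containing a nontrivial corner matrix contains
all corner matrices of `UJ`
-/

namespace Cfsg.Agent.Lib.Helper6.PsuCIT

open Matrix Cfsg.Agent.Lib.Helper43.SUBase Cfsg.Agent.H84.PslDefs
  Cfsg.Agent.Lib.Helper46.PsuDefs Cfsg.Agent.Lib.Helper46.PsuStmt

universe u

variable {K : Type u} [Field K] {q : ℕ} (D : QD K q) {n : ℕ}

/-- a corner matrix of `UJ` is `1 + c E_{0, n-1}` -/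
theorem corner_form (i0 i3 : Fin n) (h03 : i0 ≠ i3) (h0 : i0.val = 0) (h3 : i3.val + 1 = n)
    (u : SpecialLinearGroup (Fin n) K) (hu : u ∈ UJ D n) (hC : Corner n u) :
    (u : Matrix (Fin n) (Fin n) K) = 1 + Matrix.single i0 i3 (u i0 i3) := by
  rw [mem_UJ] at hu
  ext i j
  rw [Matrix.add_apply, Matrix.single_apply]
  by_cases hij : i = j
  · subst hij
    rw [hu.2.2 i, Matrix.one_apply_eq, if_neg, add_zero]
    rintro ⟨h1, h2⟩
    exact h03 (h1.trans h2.symm)
  · rw [Matrix.one_apply_ne hij, zero_add]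
    by_cases h : i0 = i ∧ i3 = j
    · rw [if_pos h, h.1, h.2]
    · rw [if_neg h]
      apply hC i j hij
      rintro ⟨h1, h2⟩
      exact h ⟨Fin.ext (by omega), Fin.ext (by omega)⟩

/-- the corner entry of a unitary corner matrix is skew -/
theorem corner_skew (i0 i3 : Fin n) (h03 : i0 ≠ i3) (hr3 : Fin.rev i3 = i0)
    (hr0 : Fin.rev i0 = i3) (c : K)
    (h : adjJ D n (1 + Matrix.single i0 i3 c) * (1 + Matrix.single i0 i3 c) = 1) :
    D.φ c = -c := by
  have e : Matrix.single i0 i3 (D.φ c) * Matrix.single i0 i3 c = 0 :=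
    Matrix.single_mul_single_of_ne _ _ _ _ (fun h => h03 h.symm) _
  rw [adjJ_add, adjJ_one, adjJ_single, hr3, hr0, Matrix.add_mul, Matrix.one_mul, Matrix.mul_add,
    Matrix.mul_one, e, add_zero] at h
  have h2 := congrFun (congrFun h i0) i3
  rw [Matrix.add_apply, Matrix.add_apply, Matrix.one_apply_ne h03, Matrix.single_apply_same,
    Matrix.single_apply_same, zero_add] at h2
  exact eq_neg_of_add_eq_zero_right h2

theorem main : CornerInT.{u} := by
  intro n K _ _ q D hn T hTU hcl hz g hgU hgC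
  obtain ⟨z, hzT, hz1, hzC⟩ := hz
  have hzU := hTU hzT
  -- the four indices
  obtain ⟨i0, h0⟩ : ∃ i : Fin n, i.val = 0 := ⟨⟨0, by omega⟩, rfl⟩
  obtain ⟨i1, h1⟩ : ∃ i : Fin n, i.val = 1 := ⟨⟨1, by omega⟩, rfl⟩
  obtain ⟨i2, h2⟩ : ∃ i : Fin n, i.val + 2 = n := ⟨⟨n - 2, by omega⟩, by simp; omega⟩
  obtain ⟨i3, h3⟩ : ∃ i : Fin n, i.val + 1 = n := ⟨⟨n - 1, by omega⟩, by simp; omega⟩
  have h01 : i0 ≠ i1 := fun h => by rw [h] at h0; omega
  have h02 : i0 ≠ i2 := fun h => by rw [h] at h0; omega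
  have h03 : i0 ≠ i3 := fun h => by rw [h] at h0; omega
  have h12 : i1 ≠ i2 := fun h => by rw [h] at h1; omega
  have h13 : i1 ≠ i3 := fun h => by rw [h] at h1; omega
  have h23 : i2 ≠ i3 := fun h => by rw [h] at h2; omega
  have hr0 : Fin.rev i0 = i3 := Fin.ext (by rw [Fin.val_rev]; omega)
  have hr1 : Fin.rev i1 = i2 := Fin.ext (by rw [Fin.val_rev]; omega)
  have hr2 : Fin.rev i2 = i1 := Fin.ext (by rw [Fin.val_rev]; omega)
  have hr3 : Fin.rev i3 = i0 := Fin.ext (by rw [Fin.val_rev]; omega)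
  -- forms
  have hzform := corner_form D i0 i3 h03 h0 h3 z hzU hzC
  have hgform := corner_form D i0 i3 h03 h0 h3 g hgU hgC
  obtain ⟨c, hc⟩ : ∃ c, c = z i0 i3 := ⟨_, rfl⟩
  obtain ⟨c', hc'⟩ : ∃ c', c' = g i0 i3 := ⟨_, rfl⟩
  rw [← hc] at hzform
  rw [← hc'] at hgform
  have hcskew : D.φ c = -c := by
    apply corner_skew D i0 i3 h03 hr3 hr0 c
    rw [← hzform]
    exact ((mem_UJ D n z).1 hzU).1
  have hc'skew : D.φ c' = -c' := by
    apply corner_skew D i0 i3 h03 hr3 hr0 c'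
    rw [← hgform]
    exact ((mem_UJ D n g).1 hgU).1
  have hc0 : c ≠ 0 := by
    intro hc0
    apply hz1
    apply Subtype.ext
    rw [hzform, hc0, Matrix.single_zero, add_zero, Matrix.SpecialLinearGroup.coe_one]
  by_cases hc'0 : c' = 0
  · have hg1 : g = 1 := by
      apply Subtype.ext
      rw [hgform, hc'0, Matrix.single_zero, add_zero, Matrix.SpecialLinearGroup.coe_one]
    rw [hg1]
    exact T.one_mem
  -- the norm equation
  have hr : D.φ (c' * c⁻¹) = c' * c⁻¹ := by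
    rw [map_mul, map_inv₀, hcskew, hc'skew, neg_mul, inv_neg, mul_neg, neg_neg]
  obtain ⟨lam, hlam⟩ := D.nm _ hr
  have hlam0 : lam ≠ 0 := by
    intro h
    rw [h, zero_mul] at hlam
    have : c' = 0 := by
      have h5 : c' = c' * c⁻¹ * c := by field_simp
      rw [h5, ← hlam, zero_mul]
    exact hc'0 this
  have hphi0 : D.φ lam ≠ 0 := (map_ne_zero D.φ).mpr hlam0
  -- the diagonal matrix
  obtain ⟨f, hf⟩ : ∃ f : Fin n → K, f = fun i => (if i = i0 then lam else 1) *
      (if i = i1 then D.φ lam else 1) * (if i = i2 then lam⁻¹ else 1) *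
      (if i = i3 then (D.φ lam)⁻¹ else 1) := ⟨_, rfl⟩
  have hf0 : f i0 = lam := by rw [hf]; simp [h01, h02, h03]
  have hf1 : f i1 = D.φ lam := by rw [hf]; simp [h01.symm, h12, h13]
  have hf2 : f i2 = lam⁻¹ := by rw [hf]; simp [h02.symm, h12.symm, h23]
  have hf3 : f i3 = (D.φ lam)⁻¹ := by rw [hf]; simp [h03.symm, h13.symm, h23.symm]
  have hfo : ∀ i, i ≠ i0 → i ≠ i1 → i ≠ i2 → i ≠ i3 → f i = 1 := by
    intro i a0 a1 a2 a3
    rw [hf]; simp [a0, a1, a2, a3]
  have hff : ∀ i, D.φ (f (Fin.rev i)) * f i = 1 := by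
    intro i
    by_cases a0 : i = i0
    · rw [a0, hr0, hf3, hf0, map_inv₀, D.inv, inv_mul_cancel₀ hlam0]
    by_cases a1 : i = i1
    · rw [a1, hr1, hf2, hf1, map_inv₀, inv_mul_cancel₀ hphi0]
    by_cases a2 : i = i2
    · rw [a2, hr2, hf1, hf2, D.inv, mul_inv_cancel₀ hlam0]
    by_cases a3 : i = i3
    · rw [a3, hr3, hf0, hf3, mul_inv_cancel₀ hphi0]
    have b0 : Fin.rev i ≠ i0 := fun h => a3 (by rw [← hr0, ← h, Fin.rev_rev])
    have b1 : Fin.rev i ≠ i1 := fun h => a2 (by rw [← hr1, ← h, Fin.rev_rev])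
    have b2 : Fin.rev i ≠ i2 := fun h => a1 (by rw [← hr2, ← h, Fin.rev_rev])
    have b3 : Fin.rev i ≠ i3 := fun h => a0 (by rw [← hr3, ← h, Fin.rev_rev])
    rw [hfo i a0 a1 a2 a3, hfo _ b0 b1 b2 b3, map_one, mul_one]
  have hdet : (Matrix.diagonal f).det = 1 := by
    rw [Matrix.det_diagonal, hf]
    simp only [Finset.prod_mul_distrib, Finset.prod_ite_eq', Finset.mem_univ, if_true]
    field_simp
  have hadj : adjJ D n (Matrix.diagonal f) = Matrix.diagonal (fun i => D.φ (f (Fin.rev i))) := by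
    ext i j
    rw [adjJ_apply, Matrix.diagonal_apply, Matrix.diagonal_apply]
    by_cases hij : i = j
    · subst hij
      rw [if_pos rfl, if_pos rfl]
    · rw [if_neg (fun h => hij (Fin.rev_injective h).symm), if_neg hij, map_zero]
  obtain ⟨d, hd⟩ : ∃ d : SpecialLinearGroup (Fin n) K,
      (d : Matrix (Fin n) (Fin n) K) = Matrix.diagonal f := ⟨⟨_, hdet⟩, rfl⟩
  have hdG : d ∈ GJ D n := by
    rw [mem_GJ, hd, hadj, Matrix.diagonal_mul_diagonal]
    have : (fun i => D.φ (f (Fin.rev i)) * f i) = fun _ => (1 : K) := funext hff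
    rw [this, Matrix.diagonal_one]
  have hconj : d * z * d⁻¹ = g := by
    apply Subtype.ext
    rw [Matrix.SpecialLinearGroup.coe_mul, Matrix.SpecialLinearGroup.coe_mul,
      coe_inv_of_mem D n hdG, hd, hadj, hzform, hgform]
    ext i j
    rw [Matrix.mul_diagonal, Matrix.diagonal_mul, Matrix.add_apply, Matrix.add_apply,
      Matrix.single_apply, Matrix.single_apply]
    by_cases hij : i = j
    · subst hij
      have hne : ¬ (i0 = i ∧ i3 = i) := fun h => h03 (h.1.trans h.2.symm)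
      rw [Matrix.one_apply_eq, if_neg hne, if_neg hne, add_zero, mul_one, mul_comm]
      exact hff i
    · rw [Matrix.one_apply_ne hij, zero_add, zero_add]
      by_cases h : i0 = i ∧ i3 = j
      · rw [if_pos h, if_pos h, ← h.1, ← h.2, hr3, hf0]
        have h5 : c' = c' * c⁻¹ * c := by field_simp
        rw [h5, ← hlam]
        ring
      · rw [if_neg h, if_neg h, mul_zero, zero_mul]
  rw [← hconj]
  apply hcl z hzT d hdG
  rw [hconj]
  exact hgU

end Cfsg.Agent.Lib.Helper6.PsuCIT
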