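import Mathlib
import Cfsg.Agent.Lib.Helper46.PsuStmt

set_option autoImplicit false

/-!
# S5172 helper: conjugation by permutation matrices in the J-model

A permutation `σ` of `Fin n` commuting with `Fin.rev` and of sign `1` gives an element `w` of
`GJ D n` (its permutation matrix) with `w * g * w⁻¹ = g.submatrix σ σ` on matrices.
-/

namespace Cfsg.Agent.Lib.Helper6.PsuPerm

open Matrix Cfsg.Agent.Lib.Helper43.SUBase Cfsg.Agent.H84.PslDefs
  Cfsg.Agent.Lib.Helper46.PsuDefs

universe u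

variable {K : Type u} [Field K] {q : ℕ} (D : QD K q) {n : ℕ}

theorem permMatrix_apply' (σ : Equiv.Perm (Fin n)) (i j : Fin n) :
    (σ.permMatrix K) i j = if σ i = j then 1 else 0 := by
  simp [Equiv.Perm.permMatrix, PEquiv.toMatrix_apply, Equiv.toPEquiv_apply]

theorem adjJ_permMatrix (σ : Equiv.Perm (Fin n)) (hrev : ∀ a, σ (Fin.rev a) = Fin.rev (σ a)) :
    adjJ D n (σ.permMatrix K) = Equiv.Perm.permMatrix K σ.symm := by
  ext a b
  rw [adjJ_apply, permMatrix_apply', permMatrix_apply', hrev]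
  by_cases h : σ.symm a = b
  · have h' : Fin.rev (σ b) = Fin.rev a := by rw [← h, Equiv.apply_symm_apply]
    rw [if_pos h, if_pos h', map_one]
  · have h' : ¬ Fin.rev (σ b) = Fin.rev a := by
      intro h2
      apply h
      rw [← Fin.rev_injective h2, Equiv.symm_apply_apply]
    rw [if_neg h, if_neg h', map_zero]

/-- conjugation by the permutation matrix of a permutation commuting with `rev`, of sign `1` -/
theorem perm_conj (σ : Equiv.Perm (Fin n)) (hrev : ∀ a, σ (Fin.rev a) = Fin.rev (σ a))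
    (hsign : Equiv.Perm.sign σ = 1) :
    ∃ w ∈ GJ D n, ∀ g : SpecialLinearGroup (Fin n) K,
      ((w * g * w⁻¹ : SpecialLinearGroup (Fin n) K) : Matrix (Fin n) (Fin n) K) =
        (g : Matrix (Fin n) (Fin n) K).submatrix σ σ := by
  have hdet : (σ.permMatrix K).det = 1 := by
    rw [Matrix.det_permutation, hsign]
    simp
  obtain ⟨w, hw⟩ : ∃ w : SpecialLinearGroup (Fin n) K,
      (w : Matrix (Fin n) (Fin n) K) = σ.permMatrix K := ⟨⟨_, hdet⟩, rfl⟩
  have hG : w ∈ GJ D n := by
    rw [mem_GJ, hw, adjJ_permMatrix D σ hrev]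
    ext a b
    rw [Equiv.Perm.permMatrix, PEquiv.toMatrix_toPEquiv_mul, Matrix.submatrix_apply, id,
      permMatrix_apply', Equiv.apply_symm_apply, Matrix.one_apply]
  refine ⟨w, hG, fun g => ?_⟩
  rw [Matrix.SpecialLinearGroup.coe_mul, Matrix.SpecialLinearGroup.coe_mul,
    coe_inv_of_mem D n hG, hw, adjJ_permMatrix D σ hrev]
  ext a b
  rw [Equiv.Perm.permMatrix, Equiv.Perm.permMatrix, PEquiv.mul_toMatrix_toPEquiv,
    PEquiv.toMatrix_toPEquiv_mul]
  simp

/-- reindexing a matrix unit by a permutation -/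
theorem single_submatrix (σ : Equiv.Perm (Fin n)) (i j : Fin n) (c : K) :
    (Matrix.single i j c).submatrix σ σ = Matrix.single (σ.symm i) (σ.symm j) c := by
  ext a b
  rw [Matrix.submatrix_apply, Matrix.single_apply, Matrix.single_apply]
  by_cases h : i = σ a ∧ j = σ b
  · have h' : σ.symm i = a ∧ σ.symm j = b := by
      rw [h.1, h.2, Equiv.symm_apply_apply, Equiv.symm_apply_apply]; exact ⟨rfl, rfl⟩
    rw [if_pos h, if_pos h']
  · have h' : ¬ (σ.symm i = a ∧ σ.symm j = b) := by
      rintro ⟨h1, h2⟩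
      exact h ⟨by rw [← h1, Equiv.apply_symm_apply], by rw [← h2, Equiv.apply_symm_apply]⟩
    rw [if_neg h, if_neg h']

/-- the double transposition `(a b)(rev a, rev b)` commutes with `rev` -/
theorem swap_rev (a b : Fin n) (hnd : [a, b, Fin.rev a, Fin.rev b].Nodup) (x : Fin n) :
    (Equiv.swap a b * Equiv.swap (Fin.rev a) (Fin.rev b)) (Fin.rev x) =
      Fin.rev ((Equiv.swap a b * Equiv.swap (Fin.rev a) (Fin.rev b)) x) := by
  have key : ∀ (c d : Fin n) (y : Fin n),
      Equiv.swap (Fin.rev c) (Fin.rev d) (Fin.rev y) = Fin.rev (Equiv.swap c d y) := by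
    intro c d y
    by_cases h1 : y = c
    · subst h1; rw [Equiv.swap_apply_left, Equiv.swap_apply_left]
    by_cases h2 : y = d
    · subst h2; rw [Equiv.swap_apply_right, Equiv.swap_apply_right]
    rw [Equiv.swap_apply_of_ne_of_ne h1 h2, Equiv.swap_apply_of_ne_of_ne
      (fun h => h1 (Fin.rev_injective h)) (fun h => h2 (Fin.rev_injective h))]
  have hcomm : Equiv.swap a b * Equiv.swap (Fin.rev a) (Fin.rev b) =
      Equiv.swap (Fin.rev a) (Fin.rev b) * Equiv.swap a b :=
    (Equiv.Perm.disjoint_swap_swap hnd).commute.eq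
  have h1 := key (Fin.rev a) (Fin.rev b)
  simp only [Fin.rev_rev] at h1
  rw [Equiv.Perm.mul_apply, key a b, h1, ← Equiv.Perm.mul_apply, ← hcomm]

theorem swap_sign (a b : Fin n) (hab : a ≠ b) :
    Equiv.Perm.sign (Equiv.swap a b * Equiv.swap (Fin.rev a) (Fin.rev b)) = 1 := by
  rw [Equiv.Perm.sign_mul, Equiv.Perm.sign_swap hab,
    Equiv.Perm.sign_swap (fun h => hab (Fin.rev_injective h))]
  rfl

end Cfsg.Agent.Lib.Helper6.PsuPerm
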