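import Mathlib
import Cfsg.Agent.Lib.Helper46.PsuStmt
import Cfsg.Agent.Lib.Helper46.PsuROOTS
import Cfsg.Agent.Lib.Helper6.PsuPerm

set_option autoImplicit false
set_option linter.unusedSimpArgs false

/-!
# Piece MIT of S5172: a strongly closed subgroup containing the short root elements contains
the root elements through the middle index
-/

namespace Cfsg.Agent.Lib.Helper6.PsuMIT

open Matrix Cfsg.Agent.Lib.Helper43.SUBase Cfsg.Agent.H84.PslDefs
  Cfsg.Agent.Lib.Helper46.PsuDefs Cfsg.Agent.Lib.Helper46.PsuStmt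
  Cfsg.Agent.Lib.Helper46.PsuROOTS Cfsg.Agent.Lib.Helper6.PsuPerm

universe u

variable {K : Type u} [Field K] {q : ℕ} (D : QD K q) {n : ℕ}

/-- the unitary condition of a middle root matrix -/
theorem mid_rel (i j : Fin n) (a b : K) (hij : i < j) (hjj : j = Fin.rev j)
    (h : adjJ D n (midM D n i j a b) * midM D n i j a b = 1) : b + D.φ b + a * D.φ a = 0 := by
  have hrr : Fin.rev j < Fin.rev i := Fin.rev_lt_rev.2 hij
  have hji : j < Fin.rev i := by
    rw [← hjj] at hrr
    exact hrr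
  have hi : i < Fin.rev i := lt_trans hij hji
  rw [midM, adjJ_add, adjJ_sub, adjJ_add, adjJ_one, adjJ_single, adjJ_single, adjJ_single,
    Fin.rev_rev, D.inv, ← hjj] at h
  have hne1 : Fin.rev i ≠ i := ne_of_gt hi
  have hne2 : Fin.rev i ≠ j := ne_of_gt hji
  have hne3 : j ≠ i := ne_of_gt hij
  simp only [Matrix.add_mul, Matrix.sub_mul, Matrix.mul_add, Matrix.mul_sub, Matrix.one_mul,
    Matrix.mul_one, Matrix.single_mul_single_same,
    Matrix.single_mul_single_of_ne _ _ _ _ hne1, Matrix.single_mul_single_of_ne _ _ _ _ hne2,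
    Matrix.single_mul_single_of_ne _ _ _ _ hne3] at h
  have h2 := congrFun (congrFun h i) (Fin.rev i)
  simp [Matrix.single_apply, Matrix.one_apply, hne1, hne1.symm, hne2, hne2.symm, hne3,
    hne3.symm] at h2
  linear_combination h2

set_option maxHeartbeats 1000000 in
theorem comm_identity (i0 i1 j : Fin n) (h01 : i0 < i1) (h1j : i1 < j) (hjj : j = Fin.rev j)
    (A B : K) (hB : B + D.φ B + A * D.φ A = 0) :
    midM D n i1 j (-A) (D.φ B) * shortM D n i0 i1 1 =
      midM D n i0 j A B * shortM D n i0 (Fin.rev i1) B *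
        (shortM D n i0 i1 1 * midM D n i1 j (-A) (D.φ B)) := by
  have hj1 : j < Fin.rev i1 := by
    have := Fin.rev_lt_rev.2 h1j
    rw [← hjj] at this
    exact this
  have h10 : Fin.rev i1 < Fin.rev i0 := Fin.rev_lt_rev.2 h01
  obtain ⟨r1, hr1⟩ : ∃ r, r = Fin.rev i1 := ⟨_, rfl⟩
  obtain ⟨r0, hr0⟩ : ∃ r, r = Fin.rev i0 := ⟨_, rfl⟩
  rw [← hr1] at hj1 h10
  rw [← hr0] at h10
  have hφB : D.φ B = -B - A * D.φ A := by linear_combination hB
  simp only [midM, shortM, Fin.rev_rev, map_neg, map_one]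
  simp only [← hr1, ← hr0]
  have a01 : i0 ≠ i1 := ne_of_lt h01
  have a0j : i0 ≠ j := ne_of_lt (h01.trans h1j)
  have a0r1 : i0 ≠ r1 := ne_of_lt ((h01.trans h1j).trans hj1)
  have a0r0 : i0 ≠ r0 := ne_of_lt (((h01.trans h1j).trans hj1).trans h10)
  have a1j : i1 ≠ j := ne_of_lt h1j
  have a1r1 : i1 ≠ r1 := ne_of_lt (h1j.trans hj1)
  have a1r0 : i1 ≠ r0 := ne_of_lt ((h1j.trans hj1).trans h10)
  have ajr1 : j ≠ r1 := ne_of_lt hj1
  have ajr0 : j ≠ r0 := ne_of_lt (hj1.trans h10)
  have ar1r0 : r1 ≠ r0 := ne_of_lt h10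
  simp only [Matrix.add_mul, Matrix.mul_add, Matrix.sub_mul, Matrix.mul_sub, Matrix.one_mul,
    Matrix.mul_one, Matrix.single_mul_single_same,
    Matrix.single_mul_single_of_ne _ _ _ _ a01, Matrix.single_mul_single_of_ne _ _ _ _ a01.symm,
    Matrix.single_mul_single_of_ne _ _ _ _ a0j, Matrix.single_mul_single_of_ne _ _ _ _ a0j.symm,
    Matrix.single_mul_single_of_ne _ _ _ _ a0r1, Matrix.single_mul_single_of_ne _ _ _ _ a0r1.symm,
    Matrix.single_mul_single_of_ne _ _ _ _ a0r0, Matrix.single_mul_single_of_ne _ _ _ _ a0r0.symm,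
    Matrix.single_mul_single_of_ne _ _ _ _ a1j, Matrix.single_mul_single_of_ne _ _ _ _ a1j.symm,
    Matrix.single_mul_single_of_ne _ _ _ _ a1r1, Matrix.single_mul_single_of_ne _ _ _ _ a1r1.symm,
    Matrix.single_mul_single_of_ne _ _ _ _ a1r0, Matrix.single_mul_single_of_ne _ _ _ _ a1r0.symm,
    Matrix.single_mul_single_of_ne _ _ _ _ ajr1, Matrix.single_mul_single_of_ne _ _ _ _ ajr1.symm,
    Matrix.single_mul_single_of_ne _ _ _ _ ajr0, Matrix.single_mul_single_of_ne _ _ _ _ ajr0.symm,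
    Matrix.single_mul_single_of_ne _ _ _ _ ar1r0,
    Matrix.single_mul_single_of_ne _ _ _ _ ar1r0.symm,
    zero_mul, mul_zero, add_zero, zero_add, sub_zero, zero_sub, neg_zero, Matrix.zero_mul,
    Matrix.mul_zero]
  obtain ⟨E, hE⟩ : ∃ E : Fin n → Fin n → Matrix (Fin n) (Fin n) K,
      ∀ p q c, Matrix.single p q c = c • E p q :=
    ⟨fun p q => Matrix.single p q 1, by intro p q c; rw [Matrix.smul_single, smul_eq_mul, mul_one]⟩
  simp only [hE, hφB]
  module


theorem main : MidInT.{u} := by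
  intro n K _ _ q D hn T hTU hcl hTop hLevi g hgU hgMid
  obtain ⟨i, j, a, b, hij, hjj, hgm⟩ := hgMid
  have hjv : n = 2 * j.val + 1 := by
    have h := congrArg Fin.val hjj
    rw [Fin.val_rev] at h
    omega
  have hb : b + D.φ b + a * D.φ a = 0 := by
    apply mid_rel D i j a b hij hjj
    rw [← hgm]
    exact ((mem_UJ D n g).1 hgU).1
  obtain ⟨i0, h0⟩ : ∃ i : Fin n, i.val = 0 := ⟨⟨0, by omega⟩, rfl⟩
  obtain ⟨i1, h1⟩ : ∃ i : Fin n, i.val = 1 := ⟨⟨1, by omega⟩, rfl⟩
  have h01 : i0 < i1 := by rw [Fin.lt_def]; omega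
  have h1j : i1 < j := by rw [Fin.lt_def]; omega
  -- step 1: the case `i = 0`
  have step1 : ∀ (A B : K), B + D.φ B + A * D.φ A = 0 →
      ∀ g0 : SpecialLinearGroup (Fin n) K,
        (g0 : Matrix (Fin n) (Fin n) K) = midM D n i0 j A B → g0 ∈ T := by
    intro A B hB g0 hg0
    obtain ⟨x, hxU, hx⟩ := mid_exists D i1 j (-A) (D.φ B) h1j hjj
      (by rw [D.inv, map_neg]; linear_combination hB)
    obtain ⟨y, hyU, hy⟩ := short_exists D i0 i1 (1 : K) h01
      (by rw [Fin.lt_def, Fin.val_rev]; omega)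
      (by intro h; have h' := congrArg Fin.val h; rw [Fin.val_rev] at h'; omega)
    obtain ⟨s, hsU, hs⟩ := short_exists D i0 (Fin.rev i1) B
      (by rw [Fin.lt_def, Fin.val_rev]; omega)
      (by rw [Fin.lt_def, Fin.val_rev, Fin.val_rev]; omega)
      (by
        intro h
        rw [Fin.rev_rev] at h
        have h' := congrArg Fin.val h
        rw [Fin.val_rev] at h'
        omega)
    have hyT : y ∈ T := hLevi y hyU ⟨i0, i1, 1, h01, by omega, hy⟩
    have hsT : s ∈ T := hTop s hsU ⟨i0, Fin.rev i1, B,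
      by rw [Fin.lt_def, Fin.val_rev]; omega,
      by rw [Fin.lt_def, Fin.val_rev, Fin.val_rev]; omega,
      by rw [Fin.val_rev]; omega, hs⟩
    have hxy : x * y = g0 * s * (y * x) := by
      apply Subtype.ext
      rw [Matrix.SpecialLinearGroup.coe_mul, Matrix.SpecialLinearGroup.coe_mul,
        Matrix.SpecialLinearGroup.coe_mul, Matrix.SpecialLinearGroup.coe_mul, hx, hy, hg0, hs]
      exact comm_identity D i0 i1 j h01 h1j hjj A B hB
    have hconjT : x * y * x⁻¹ ∈ T :=
      hcl y hyT x (UJ_le_GJ D n hxU)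
        ((UJ D n).mul_mem ((UJ D n).mul_mem hxU hyU) ((UJ D n).inv_mem hxU))
    have hg0' : g0 = x * y * x⁻¹ * y⁻¹ * s⁻¹ := by
      calc g0 = g0 * s * (y * x) * (y * x)⁻¹ * s⁻¹ := by group
        _ = x * y * (y * x)⁻¹ * s⁻¹ := by rw [← hxy]
        _ = x * y * x⁻¹ * y⁻¹ * s⁻¹ := by group
    rw [hg0']
    exact T.mul_mem (T.mul_mem hconjT (T.inv_mem hyT)) (T.inv_mem hsT)
  by_cases hi0 : i = i0
  · rw [hi0] at hgm
    exact step1 a b hb g hgm
  · -- step 2: conjugate by the permutation matrix of `(0 i)(rev 0, rev i)`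
    have hiv : i.val ≠ 0 := fun h => hi0 (Fin.ext (by omega))
    have hijv : i.val < j.val := hij
    have e0i : i0 ≠ i := fun h => hi0 h.symm
    have e0r0 : i0 ≠ Fin.rev i0 := by
      intro h; have h' := congrArg Fin.val h; rw [Fin.val_rev] at h'; omega
    have e0ri : i0 ≠ Fin.rev i := by
      intro h; have h' := congrArg Fin.val h; rw [Fin.val_rev] at h'; omega
    have eir0 : i ≠ Fin.rev i0 := by
      intro h; have h' := congrArg Fin.val h; rw [Fin.val_rev] at h'; omega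
    have eiri : i ≠ Fin.rev i := by
      intro h; have h' := congrArg Fin.val h; rw [Fin.val_rev] at h'; omega
    have er0ri : Fin.rev i0 ≠ Fin.rev i := fun h => e0i (Fin.rev_injective h)
    have ej0 : j ≠ i0 := by
      intro h; have h' := congrArg Fin.val h; omega
    have eji : j ≠ i := ne_of_gt hij
    have ejr0 : j ≠ Fin.rev i0 := by
      intro h; have h' := congrArg Fin.val h; rw [Fin.val_rev] at h'; omega
    have ejri : j ≠ Fin.rev i := by
      intro h; have h' := congrArg Fin.val h; rw [Fin.val_rev] at h'; omega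
    have hnd : [i0, i, Fin.rev i0, Fin.rev i].Nodup := by
      simp [e0i, e0r0, e0ri, eir0, eiri, er0ri]
    obtain ⟨w, hwG, hw⟩ := perm_conj D (Equiv.swap i0 i * Equiv.swap (Fin.rev i0) (Fin.rev i))
      (swap_rev i0 i hnd) (swap_sign i0 i e0i)
    obtain ⟨g0, hg0U, hg0⟩ := mid_exists D i0 j a b (by rw [Fin.lt_def]; omega) hjj hb
    have hg0T : g0 ∈ T := step1 a b hb g0 hg0
    have s1 : (Equiv.swap i0 i * Equiv.swap (Fin.rev i0) (Fin.rev i)).symm i0 = i := by
      rw [Equiv.symm_apply_eq, Equiv.Perm.mul_apply, Equiv.swap_apply_of_ne_of_ne eir0 eiri,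
        Equiv.swap_apply_right]
    have s2 : (Equiv.swap i0 i * Equiv.swap (Fin.rev i0) (Fin.rev i)).symm j = j := by
      rw [Equiv.symm_apply_eq, Equiv.Perm.mul_apply, Equiv.swap_apply_of_ne_of_ne ejr0 ejri,
        Equiv.swap_apply_of_ne_of_ne ej0 eji]
    have s3 : (Equiv.swap i0 i * Equiv.swap (Fin.rev i0) (Fin.rev i)).symm (Fin.rev i0) =
        Fin.rev i := by
      rw [Equiv.symm_apply_eq, Equiv.Perm.mul_apply, Equiv.swap_apply_right,
        Equiv.swap_apply_of_ne_of_ne e0r0.symm eir0.symm]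
    have hconj : w * g0 * w⁻¹ = g := by
      apply Subtype.ext
      rw [hw g0, hg0, hgm]
      simp only [midM, Matrix.submatrix_add, Matrix.submatrix_sub, Pi.add_apply, Pi.sub_apply,
        Matrix.submatrix_one_equiv, single_submatrix, s1, s2, s3]
    rw [← hconj]
    apply hcl g0 hg0T w hwG
    rw [hconj]
    exact hgU

end Cfsg.Agent.Lib.Helper6.PsuMIT
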