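import Mathlib
import Cfsg.Agent.Lib.Helper18.QuadStmt

/-!
# S2787, piece RLEM

`SL₂(𝔽_p)` acting through `PSL₂(𝔽_p)` on an abelian group of exponent `p` (`p` odd) with
`x = [[1,1],[0,1]]` quadratic: then `w = [[0,1],[-1,0]]` or `x` acts trivially.
-/

set_option autoImplicit false

namespace Cfsg.Agent.Lib.Helper6.Q87RLEM

universe u

open Cfsg.Agent.Lib.Helper18.QuadStmt

/-- the ring computation: `X² = Y² = 0`, `ω = (1+X)(1+Y)(1+X)`, `Y ω = ω X`, `ω² = 1`. -/
theorem alg {E : Type*} [Ring E] (X Y : E)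
    (h1 : X * X = 0) (hY : Y * Y = 0)
    (h3 : Y * (1 + 2 * X + Y + X * Y + Y * X + X * Y * X) =
      (1 + 2 * X + Y + X * Y + Y * X + X * Y * X) * X)
    (h2 : (1 + 2 * X + Y + X * Y + Y * X + X * Y * X) *
      (1 + 2 * X + Y + X * Y + Y * X + X * Y * X) = 1) :
    2 * (X * Y + Y * X) = 0 ∧ 6 * (X + X * Y * X) = 0 ∧ X - Y + X * Y * X - Y * X * Y = 0 := by
  have E1 : X - Y - Y * X + X * Y * X - Y * X * Y - Y * X * Y * X = 0 := by
    have e : X - Y - Y * X + X * Y * X - Y * X * Y - Y * X * Y * X =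
        ((1 + 2 * X + Y + X * Y + Y * X + X * Y * X) * X -
          Y * (1 + 2 * X + Y + X * Y + Y * X + X * Y * X))
        - (2 * (X * X) - (Y * Y) + Y * (X * X) - (Y * Y) * X + X * Y * (X * X)) := by
      noncomm_ring
    rw [e, h3, h1, hY]
    simp
  have E2 : Y * X + Y * X * Y * X = 0 := by
    have e : Y * X + Y * X * Y * X =
        -((X - Y - Y * X + X * Y * X - Y * X * Y - Y * X * Y * X) * X)
        + ((X * X) - Y * (X * X) + X * Y * (X * X) - Y * X * Y * (X * X)) := by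
      noncomm_ring
    rw [e, E1, h1]
    simp
  have E3 : X - Y + X * Y * X - Y * X * Y = 0 := by
    have e : X - Y + X * Y * X - Y * X * Y =
        (X - Y - Y * X + X * Y * X - Y * X * Y - Y * X * Y * X) + (Y * X + Y * X * Y * X) := by
      noncomm_ring
    rw [e, E1, E2]
    simp
  have E4 : X * Y + X * Y * X * Y = 0 := by
    have e : X * Y + X * Y * X * Y =
        -(X * (X - Y + X * Y * X - Y * X * Y)) + ((X * X) + (X * X) * Y * X) := by
      noncomm_ring
    rw [e, E3, h1]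
    simp
  have F1 : 2 * (X * Y + Y * X) + 6 * (X + X * Y * X) = 0 := by
    have e : 2 * (X * Y + Y * X) + 6 * (X + X * Y * X) =
        ((1 + 2 * X + Y + X * Y + Y * X + X * Y * X) *
          (1 + 2 * X + Y + X * Y + Y * X + X * Y * X) - 1)
        - 2 * (X * Y + X * Y * X * Y) - 2 * (Y * X + Y * X * Y * X)
        + 2 * (X - Y + X * Y * X - Y * X * Y) - 2 * (X * (Y * X + Y * X * Y * X))
        - (4 * ((X * X)) + ((Y * Y)) + 2 * ((X * X) * Y) + (X * (Y * Y)) + 2 * (Y * (X * X))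
          + ((Y * Y) * X) + 2 * ((X * X) * Y * X) + 2 * (X * Y * (X * X)) + (X * (Y * Y) * X)
          + (Y * (X * X) * Y) + (X * Y * (X * X) * Y) + (Y * (X * X) * Y * X)
          + (X * Y * (X * X) * Y * X)) := by
      noncomm_ring
    rw [e, h2, E4, E2, E3, h1, hY]
    simp
  have G : 6 * (X + X * Y * X) = 0 := by
    have e : 6 * (X + X * Y * X) =
        (1 + (X * Y + Y * X)) * (2 * (X * Y + Y * X) + 6 * (X + X * Y * X))
        - 2 * (Y * X + Y * X * Y * X) - 2 * (X * Y + X * Y * X * Y)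
        - 6 * (X * (Y * X + Y * X * Y * X))
        - (6 * (Y * (X * X)) + 2 * (X * (Y * Y) * X) + 2 * (Y * (X * X) * Y)
          + 6 * (Y * (X * X) * Y * X)) := by
      noncomm_ring
    rw [e, F1, E2, E4, h1, hY]
    simp
  refine ⟨?_, G, E3⟩
  have h := F1
  rw [G, add_zero] at h
  exact h

/-- `[[1,0],[-1,1]] = w x w⁻¹`. -/
def yS (R : Type*) [CommRing R] : Matrix.SpecialLinearGroup (Fin 2) R :=
  ⟨!![1, 0; -1, 1], by simp [Matrix.det_fin_two]⟩

theorem w_mul_w (R : Type*) [CommRing R] : wS R * wS R = nS R := by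
  apply Subtype.ext
  rw [Matrix.SpecialLinearGroup.coe_mul]
  show !![0, 1; -1, 0] * !![0, 1; -1, 0] = (!![-1, 0; 0, -1] : Matrix (Fin 2) (Fin 2) R)
  simp

theorem y_mul_w (R : Type*) [CommRing R] : yS R * wS R = wS R * xS R := by
  apply Subtype.ext
  rw [Matrix.SpecialLinearGroup.coe_mul, Matrix.SpecialLinearGroup.coe_mul]
  show !![1, 0; -1, 1] * !![0, 1; -1, 0] =
    (!![0, 1; -1, 0] * !![1, 1; 0, 1] : Matrix (Fin 2) (Fin 2) R)
  simp

theorem x_y_x (R : Type*) [CommRing R] : xS R * yS R * xS R = wS R := by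
  apply Subtype.ext
  rw [Matrix.SpecialLinearGroup.coe_mul, Matrix.SpecialLinearGroup.coe_mul]
  show !![1, 1; 0, 1] * !![1, 0; -1, 1] * !![1, 1; 0, 1] =
    (!![0, 1; -1, 0] : Matrix (Fin 2) (Fin 2) R)
  simp

/-- `MulAut W → End (Additive W)` -/
def toEnd (W : Type u) [CommGroup W] : MulAut W →* AddMonoid.End (Additive W) where
  toFun f := MonoidHom.toAdditive f.toMonoidHom
  map_one' := rfl
  map_mul' _ _ := rfl

theorem toEnd_apply (W : Type u) [CommGroup W] (f : MulAut W) (v : W) :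
    toEnd W f (Additive.ofMul v) = Additive.ofMul (f v) := rfl

theorem toEnd_eq_one (W : Type u) [CommGroup W] (f : MulAut W) (h : toEnd W f = 1) : f = 1 := by
  apply MulEquiv.ext
  intro v
  have := DFunLike.congr_fun h (Additive.ofMul v)
  exact this

theorem main : RLem.{u} := by
  intro W _ p _ hp hW θ hneg hq
  have hpp : p.Prime := Fact.out
  -- `p = 0` in the endomorphism ring
  have hpE : ((p : ℕ) : AddMonoid.End (Additive W)) = 0 := by
    apply AddMonoidHom.ext
    intro v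
    refine (AddMonoid.End.natCast_apply p v).trans ?_
    show p • v = 0
    rw [← ofMul_toMul v, ← ofMul_pow, hW, ofMul_one]
  -- the elements
  obtain ⟨A, hA⟩ : ∃ A, A = toEnd W (θ (xS (ZMod p))) := ⟨_, rfl⟩
  obtain ⟨B, hB⟩ : ∃ B, B = toEnd W (θ (yS (ZMod p))) := ⟨_, rfl⟩
  obtain ⟨ω, hω⟩ : ∃ ω, ω = toEnd W (θ (wS (ZMod p))) := ⟨_, rfl⟩
  have hωω : ω * ω = 1 := by
    rw [hω, ← map_mul, ← map_mul, w_mul_w, hneg, map_one]
  have hBω : B * ω = ω * A := by
    rw [hω, hB, hA, ← map_mul, ← map_mul, ← map_mul, ← map_mul, y_mul_w]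
  have hABA : ω = A * B * A := by
    rw [hω, hB, hA, ← map_mul, ← map_mul, ← map_mul, ← map_mul, x_y_x]
  have hqA : ∀ v : Additive W, A (A v) + v = A v + A v := by
    intro v
    rw [hA]
    exact congrArg Additive.ofMul (hq (Additive.toMul v))
  obtain ⟨X, hX⟩ : ∃ X, X = A - 1 := ⟨_, rfl⟩
  obtain ⟨Y, hYdef⟩ : ∃ Y, Y = B - 1 := ⟨_, rfl⟩
  have hAX : A = 1 + X := by rw [hX]; abel
  have hBY : B = 1 + Y := by rw [hYdef]; abel
  have h1 : X * X = 0 := by
    apply AddMonoidHom.ext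
    intro v
    rw [hX]
    show (A - 1) ((A - 1) v) = 0
    have e1 : ∀ u : Additive W, (A - 1) u = A u - u := fun u => rfl
    rw [e1, e1, map_sub]
    calc A (A v) - A v - (A v - v) = (A (A v) + v) - (A v + A v) := by abel
      _ = 0 := by rw [hqA v, sub_self]
  have hYω : Y * ω = ω * X := by
    rw [hYdef, hX, sub_mul, mul_sub, hBω, one_mul, mul_one]
  have hωY : ω * Y = X * ω := by
    calc ω * Y = ω * Y * (ω * ω) := by rw [hωω, mul_one]
      _ = ω * (Y * ω) * ω := by noncomm_ring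
      _ = ω * (ω * X) * ω := by rw [hYω]
      _ = (ω * ω) * X * ω := by noncomm_ring
      _ = X * ω := by rw [hωω, one_mul]
  have hYY : Y * Y = 0 := by
    calc Y * Y = Y * (ω * ω) * Y := by rw [hωω, mul_one]
      _ = (Y * ω) * (ω * Y) := by noncomm_ring
      _ = (ω * X) * (X * ω) := by rw [hYω, hωY]
      _ = ω * (X * X) * ω := by noncomm_ring
      _ = 0 := by rw [h1]; simp
  have hP : ω = 1 + 2 * X + Y + X * Y + Y * X + X * Y * X := by
    have e : (1 + X) * (1 + Y) * (1 + X) = 1 + 2 * X + Y + X * Y + Y * X + X * Y * X + X * X := by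
      noncomm_ring
    rw [hABA, hAX, hBY, e, h1, add_zero]
  have h3 := hYω
  have h2 := hωω
  rw [hP] at h3 h2
  obtain ⟨hZ2, hT6, hE3⟩ := alg X Y h1 hYY h3 h2
  -- `Z = 0`
  have hZ : X * Y + Y * X = 0 := by
    obtain ⟨k, hk⟩ := hpp.odd_of_ne_two hp
    have h4 : ((2 * k + 1 : ℕ) : AddMonoid.End (Additive W)) * (X * Y + Y * X) = 0 := by
      rw [← hk, hpE, zero_mul]
    push_cast at h4
    have e : X * Y + Y * X = (2 * (k : AddMonoid.End (Additive W)) + 1) * (X * Y + Y * X)
        - (k : AddMonoid.End (Additive W)) * (2 * (X * Y + Y * X)) := by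
      noncomm_ring
    rw [e, h4, hZ2]
    simp
  have hXYX : X * Y * X = 0 := by
    have e : X * Y * X = (X * Y + Y * X) * X - Y * (X * X) := by noncomm_ring
    rw [e, hZ, h1]
    simp
  have hYXY : Y * X * Y = 0 := by
    have e : Y * X * Y = (X * Y + Y * X) * Y - X * (Y * Y) := by noncomm_ring
    rw [e, hZ, hYY]
    simp
  have hXeqY : X = Y := by
    rw [hXYX, hYXY] at hE3
    have : X - Y = 0 := by simpa using hE3
    exact sub_eq_zero.1 this
  have h6 : 6 * X = 0 := by
    rw [hXYX, add_zero] at hT6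
    exact hT6
  have hω3 : ω = 1 + 3 * X := by
    have e : 1 + 2 * X + Y + X * Y + Y * X + X * Y * X = 1 + 2 * X + Y + (X * Y + Y * X) + X * Y * X := by
      noncomm_ring
    rw [hP, e, hZ, hXYX, ← hXeqY]
    noncomm_ring
  by_cases hp3 : p = 3
  · left
    apply toEnd_eq_one
    rw [← hω, hω3]
    have h30 : (3 : AddMonoid.End (Additive W)) = 0 := by
      have := hpE
      rw [hp3] at this
      exact_mod_cast this
    rw [h30, zero_mul, add_zero]
  · right
    apply toEnd_eq_one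
    rw [← hA, hAX]
    have hcop : Nat.Coprime p 6 := by
      have h23 : Nat.Coprime p 2 := (Nat.coprime_primes hpp Nat.prime_two).2 hp
      have h33 : Nat.Coprime p 3 := (Nat.coprime_primes hpp Nat.prime_three).2 hp3
      exact Nat.Coprime.mul_right h23 h33
    have hco : IsCoprime (p : ℤ) (6 : ℤ) := by
      have := Nat.isCoprime_iff_coprime.2 hcop
      exact_mod_cast this
    obtain ⟨a, b, hab⟩ := hco
    have h5 : ((a * (p : ℤ) + b * 6 : ℤ) : AddMonoid.End (Additive W)) * X = X := by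
      rw [hab]
      simp
    push_cast at h5
    have e : ((a : AddMonoid.End (Additive W)) * (p : AddMonoid.End (Additive W)) +
        (b : AddMonoid.End (Additive W)) * 6) * X =
        (a : AddMonoid.End (Additive W)) * ((p : AddMonoid.End (Additive W)) * X) +
        (b : AddMonoid.End (Additive W)) * (6 * X) := by
      noncomm_ring
    rw [e, hpE, h6] at h5
    have hX0 : X = 0 := by
      rw [← h5]
      simp
    rw [hX0, add_zero]

end Cfsg.Agent.Lib.Helper6.Q87RLEM
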