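import Mathlib
import Cfsg.Agent.Lib.Helper83.S38Stmt

set_option autoImplicit false

/-! S1538 piece CONJW: `W₁` is a Sylow `p`-subgroup of `M`, so every element of order `p` of `M`
is `M`-conjugate into `W₁`. -/

namespace Cfsg.Agent.Lib.Helper6.S38CONJW

open Cfsg Cfsg.Agent.Lib.Helper83.S38Stmt

open scoped Pointwise

universe u

theorem main : ConjW.{u} := by
  intro G _ _ M W₁ U W₂ hC k hkM hk
  have hp : (Nat.card W₁).Prime := hC.hpr
  haveI : Fact (Nat.card W₁).Prime := ⟨hp⟩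
  have hW₁M : W₁ ≤ M := hC.hP.W₁_compl.2.1
  -- `W₁` inside `M`
  have hcard : Nat.card (W₁.subgroupOf M) = Nat.card W₁ :=
    Nat.card_congr (Subgroup.subgroupOfEquivOfLe hW₁M).toEquiv
  have hPg : IsPGroup (Nat.card W₁) (W₁.subgroupOf M) := by
    apply IsPGroup.of_card (n := 1)
    rw [hcard, pow_one]
  have hidx : ¬ Nat.card W₁ ∣ (W₁.subgroupOf M).index := by
    have h1 : (Nat.card W₁).Coprime (W₁.relIndex M) := hC.hP.W₁_hall
    exact (Nat.Prime.coprime_iff_not_dvd hp).1 h1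
  -- the element of order `p`
  have hk' : orderOf (⟨k, hkM⟩ : M) = Nat.card W₁ := by
    rw [← hk]
    exact Subgroup.orderOf_mk k hkM
  have hZ : IsPGroup (Nat.card W₁) (Subgroup.zpowers (⟨k, hkM⟩ : M)) := by
    apply IsPGroup.of_card (n := 1)
    rw [Nat.card_zpowers, hk', pow_one]
  obtain ⟨Q, hQ⟩ := hZ.exists_le_sylow
  obtain ⟨g, hg⟩ := MulAction.exists_smul_eq M Q (hPg.toSylow hidx)
  refine ⟨(g : G), g.2, ?_⟩
  have h2 : (⟨k, hkM⟩ : M) ∈ (Q : Subgroup M) := hQ (Subgroup.mem_zpowers _)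
  have h3 : MulAut.conj g • (⟨k, hkM⟩ : M) ∈ MulAut.conj g • (Q : Subgroup M) :=
    Subgroup.smul_mem_pointwise_smul _ _ _ h2
  rw [← Sylow.coe_subgroup_smul, hg] at h3
  have h4 : MulAut.conj g • (⟨k, hkM⟩ : M) ∈ W₁.subgroupOf M := h3
  rw [MulAut.smul_def, MulAut.conj_apply, Subgroup.mem_subgroupOf] at h4
  exact h4

end Cfsg.Agent.Lib.Helper6.S38CONJW
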