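import Mathlib
import Cfsg.Agent.Lib.Helper14.TC3Stmt
import Cfsg.Agent.Lib.Helper3.TDBasic
import Cfsg.Agent.Lib.Helper3.MGroup
import Cfsg.Agent.Lib.CT.Ops
import Cfsg.Agent.Lib.CT.Wedderburn

set_option autoImplicit false

/-! S4460 piece EAB1. -/

namespace Cfsg.Agent.Lib.Helper6.TC3EAB1

open Cfsg
open Cfsg.Agent.Lib.Helper14.TC3Stmt Cfsg.Agent.Lib.CT.Wedderburn

universe u

/-- An irreducible character which is constant is linear. -/
theorem deg_one_of_const {A : Type u} [Group A] [Finite A] (η : IrrCharacter A)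
    (h : ∀ k : A, (η : A → ℂ) k = (η : A → ℂ) 1) : charDegree (η : A → ℂ) = 1 := by
  have hone : (η : A → ℂ) 1 = 1 :=
    Cfsg.Agent.Lib.Helper3.MGroup.apply_one_eq_one_of_comm η.2 (fun a b => h _)
  exact charDegree_eq_of_apply_one (by rw [hone]; simp)

theorem main : Cfsg.Agent.Lib.Helper14.TC3Stmt.EAB1.{u} := by
  intro G _ _ f f' E r hDeg hEn hE hr η hη
  classical
  haveI := Fintype.ofFinite G
  haveI : Fintype E := Fintype.ofFinite E
  obtain ⟨χ, hχ, hdvd, -⟩ := Cfsg.Agent.Lib.Helper3.TDBasic.exists_over E η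
  have hrχ : r ∣ charDegree (χ : G → ℂ) := hη.trans hdvd
  rcases hDeg χ with h | h | h
  · rw [h] at hrχ
    exact absurd (Nat.dvd_one.mp hrχ) hr.ne_one
  · exfalso
    have htriv := hE χ h
    have hΦ : IsCharacter E (fun n : E => (χ : G → ℂ) n) :=
      Cfsg.Agent.Lib.CT.Ops.isCharacter_restrict E (isCharacter_of_irr χ.2)
    have hη1 : ∀ k : E, (η : E → ℂ) k = (η : E → ℂ) 1 := fun k =>
      Cfsg.Agent.Lib.Helper3.MGroup.constituent_apply_eq hΦ η.2 hχ (htriv k k.2)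
    have hdeg1 := deg_one_of_const η hη1
    rw [hdeg1] at hη
    exact hr.ne_one (Nat.dvd_one.mp hη)
  · rw [h] at hrχ
    exact hrχ

end Cfsg.Agent.Lib.Helper6.TC3EAB1
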