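import Mathlib
import Cfsg.Agent.Lib.Helper14.TC3Stmt
import Cfsg.Agent.Lib.Helper3.TDBasic
import Cfsg.Agent.Lib.Helper3.MGroup
import Cfsg.Agent.Lib.Helper80.IndDeg
import Cfsg.Agent.Lib.CT.Ops
import Cfsg.Agent.Lib.CT.Wedderburn
import Cfsg.Agent.Lib.CT.Clifford

set_option autoImplicit false

/-! S4460 piece EAB2A. -/

namespace Cfsg.Agent.Lib.Helper6.TC3EAB2A

open Cfsg
open Cfsg.Agent.Lib.Helper14.TC3Stmt Cfsg.Agent.Lib.CT.Wedderburn

universe u

theorem main : Cfsg.Agent.Lib.Helper14.TC3Stmt.EAB2a.{u} := by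
  intro G _ _ L E r hLn hEL hr hidx hE θ hθ x hx
  classical
  haveI := Fintype.ofFinite G
  haveI : Fintype L := Fintype.ofFinite L
  have hθc : IsCharacter L (θ : L → ℂ) := isCharacter_of_irr θ.2
  have hnd : ¬ r ∣ L.index * charDegree (θ : L → ℂ) := by
    intro h
    rcases (Nat.Prime.dvd_mul hr).mp h with h1 | h1
    · exact hidx h1
    · exact hθ h1
  obtain ⟨χ, hχ, hχr⟩ :=
    Cfsg.Agent.Lib.Helper80.IndDeg.exists_constituent_not_dvd L (θ : L → ℂ) hθc r hnd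
  have hcon : classInner (fun n : L => (χ : G → ℂ) n) (θ : L → ℂ) ≠ 0 := by
    rw [Cfsg.Agent.Lib.CT.Clifford.classInner_conj_symm]
    simpa using hχ
  have hΦ : IsCharacter L (fun n : L => (χ : G → ℂ) n) :=
    Cfsg.Agent.Lib.CT.Ops.isCharacter_restrict L (isCharacter_of_irr χ.2)
  exact Cfsg.Agent.Lib.Helper3.MGroup.constituent_apply_eq hΦ θ.2 hcon (hE χ hχr (x : G) hx)

end Cfsg.Agent.Lib.Helper6.TC3EAB2A
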