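import Mathlib
import Cfsg.Agent.Lib.Helper14.TC3Stmt
import Cfsg.Agent.Lib.Helper3.MGroup
import Cfsg.Agent.Lib.CT.LinChar
import Cfsg.Agent.Lib.CT.Wedderburn

set_option autoImplicit false

/-! S4460 piece EAB2C. -/

namespace Cfsg.Agent.Lib.Helper6.TC3EAB2C

open Cfsg
open Cfsg.Agent.Lib.Helper14.TC3Stmt Cfsg.Agent.Lib.CT.Wedderburn

universe u

theorem main : Cfsg.Agent.Lib.Helper14.TC3Stmt.EAB2c.{u} := by
  intro G _ _ L E r hLn hr hEL hLE hθ
  classical
  have hr1 : ¬ r ∣ 1 := fun h => hr.ne_one (Nat.dvd_one.mp h)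
  constructor
  · intro x hxE
    by_contra hxc
    have hxL : x ∈ L := hEL hxE
    have hx' : (⟨x, hxL⟩ : L) ∉ commutator L := by
      intro h
      apply hxc
      rw [← Subgroup.map_subtype_commutator]
      exact ⟨⟨x, hxL⟩, h, rfl⟩
    have hy : Abelianization.of (⟨x, hxL⟩ : L) ≠ 1 := by
      intro h
      apply hx'
      rw [← Abelianization.ker_of]
      exact h
    obtain ⟨μ, hμ⟩ :=
      CommGroup.exists_apply_ne_one_of_hasEnoughRootsOfUnity (Abelianization L) ℂ hy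
    obtain ⟨f, hf⟩ : ∃ f : L →* ℂˣ, ∀ g, f g = μ (Abelianization.of g) :=
      ⟨μ.comp Abelianization.of, fun g => rfl⟩
    have hirr : IsIrrCharacter L (fun g => ((f g : ℂˣ) : ℂ)) :=
      Cfsg.Agent.Lib.CT.LinChar.isIrrCharacter_of_hom f
    have hdeg : charDegree (fun g : L => ((f g : ℂˣ) : ℂ)) = 1 :=
      charDegree_eq_of_apply_one (by simp)
    have h1 := hθ ⟨_, hirr⟩ (by rw [hdeg]; exact hr1) ⟨x, hxL⟩ hxE
    have h2 : ((f ⟨x, hxL⟩ : ℂˣ) : ℂ) = ((f 1 : ℂˣ) : ℂ) := h1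
    rw [map_one] at h2
    apply hμ
    rw [← hf]
    exact Units.ext h2
  · intro θ hθ1
    by_contra hr'
    apply hθ1
    have h := hθ θ hr'
    have hone : (θ : L → ℂ) 1 = 1 :=
      Cfsg.Agent.Lib.Helper3.MGroup.apply_one_eq_one_of_comm θ.2 (fun a b => by
        apply h
        apply hLE
        exact Subgroup.commutator_mem_commutator a.2 b.2)
    exact charDegree_eq_of_apply_one (by rw [hone]; simp)

end Cfsg.Agent.Lib.Helper6.TC3EAB2C
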