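import Mathlib
import Cfsg.Agent.Lib.Helper44.TPStmt

set_option autoImplicit false

/-! S5973 piece NDARITH: arithmetic of `r ∣ ∏ (q^(d-j) - 1)(q^(d-1-j) + 1)`. -/

namespace Cfsg.Agent.Lib.Helper6.TPNDARITH

open Cfsg.Agent.Lib.Helper44.TPStmt

theorem main : NdArith := by
  intro q d m r hr hq hm hmd hdvd
  haveI : Fact r.Prime := ⟨hr⟩
  obtain ⟨j, hj, hjd⟩ := (Prime.dvd_finsetProd_iff hr.prime _).1 hdvd
  rw [Finset.mem_range] at hj
  have hcase : ((q : ZMod r) ^ (d - j) = 1) ∨ ((q : ZMod r) ^ (d - 1 - j) = -1) := by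
    rcases (Nat.Prime.dvd_mul hr).1 hjd with h | h
    · left
      have h1 : ((q ^ (d - j) - 1 : ℕ) : ZMod r) = 0 := (ZMod.natCast_eq_zero_iff _ _).2 h
      rw [Nat.cast_sub (Nat.one_le_pow _ _ (by omega)), Nat.cast_pow, Nat.cast_one,
        sub_eq_zero] at h1
      exact h1
    · right
      have h1 : ((q ^ (d - 1 - j) + 1 : ℕ) : ZMod r) = 0 := (ZMod.natCast_eq_zero_iff _ _).2 h
      rw [Nat.cast_add, Nat.cast_pow, Nat.cast_one] at h1
      exact eq_neg_of_add_eq_zero_left h1
  constructor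
  · intro hrq
    have hq0 : (q : ZMod r) = 0 := (ZMod.natCast_eq_zero_iff _ _).2 hrq
    rcases hcase with h | h
    · rw [hq0, zero_pow (by omega)] at h
      exact zero_ne_one h
    · rw [hq0, zero_pow (by omega)] at h
      have h3 : (1 : ZMod r) = 0 := by
        have h4 := congrArg (fun t : ZMod r => -t) h
        simpa using h4.symm
      exact one_ne_zero h3
  · intro hr2
    refine ⟨j, hj, ?_⟩
    rcases hcase with h | h
    · left
      exact orderOf_dvd_of_pow_eq_one h
    · right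
      have hne : (-1 : ZMod r) ≠ 1 := by
        haveI : Fact (2 < r) := ⟨lt_of_le_of_ne hr.two_le (Ne.symm hr2)⟩
        exact ZMod.neg_one_ne_one
      have hnd : ¬ orderOf (q : ZMod r) ∣ d - 1 - j := by
        intro hd
        rw [orderOf_dvd_iff_pow_eq_one, h] at hd
        exact hne hd
      have h2 : orderOf (q : ZMod r) ∣ 2 * (d - 1 - j) := by
        apply orderOf_dvd_of_pow_eq_one
        rw [mul_comm, pow_mul, h]
        norm_num
      refine ⟨?_, h2, hnd⟩
      by_contra hodd
      rw [Nat.not_even_iff_odd] at hodd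
      exact hnd ((Nat.Coprime.dvd_mul_left hodd.coprime_two_right).1 h2)

end Cfsg.Agent.Lib.Helper6.TPNDARITH
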