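import Mathlib
import Cfsg.Agent.Lib.Helper44.TPStmt
import Cfsg.Agent.Lib.Helper76.S8Glue

set_option autoImplicit false

/-! S5973 piece PROJ: an isometry of the plus form with `x ^ r` scalar, `r` odd, is `± y` with
`y ^ r = 1`. -/

namespace Cfsg.Agent.Lib.Helper6.TPPROJ

open Cfsg.Agent.Lib.Helper44.TPStmt Cfsg.Agent.Lib.Helper76.S8Glue Matrix

universe u

theorem q_smul {F : Type u} [Field F] (d : ℕ) (z : F) (v : J d → F) :
    Cfsg.quadFormPlus d F (z • v) = z * z * Cfsg.quadFormPlus d F v := by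
  unfold Cfsg.quadFormPlus
  rw [Finset.mul_sum]
  apply Finset.sum_congr rfl
  intro i _
  simp only [Pi.smul_apply, smul_eq_mul]
  ring

theorem q_neg {F : Type u} [Field F] (d : ℕ) (v : J d → F) :
    Cfsg.quadFormPlus d F (-v) = Cfsg.quadFormPlus d F v := by
  unfold Cfsg.quadFormPlus
  apply Finset.sum_congr rfl
  intro i _
  simp only [Pi.neg_apply]
  ring

theorem main : Proj.{u} := by
  intro F _ _ d hd r hr x hx hz
  obtain ⟨z, hz⟩ := hz
  have hxr : x ^ r ∈ Cfsg.isometryGroup F (Cfsg.quadFormPlus d F) := Subgroup.pow_mem _ hx r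
  have hxr' := (mem_iso _ (x ^ r)).1 hxr
  -- the test vector
  have hzz : z * z = 1 := by
    have h1 := hxr' (Sum.elim (fun i : Fin d => if i = ⟨0, hd⟩ then (1 : F) else 0)
      (fun i : Fin d => if i = ⟨0, hd⟩ then (1 : F) else 0))
    rw [hz, Matrix.smul_mulVec, Matrix.one_mulVec, q_smul] at h1
    have h2 : Cfsg.quadFormPlus d F (Sum.elim (fun i : Fin d => if i = ⟨0, hd⟩ then (1 : F) else 0)
      (fun i : Fin d => if i = ⟨0, hd⟩ then (1 : F) else 0)) = 1 := by
      unfold Cfsg.quadFormPlus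
      simp
    rw [h2, mul_one] at h1
    exact h1
  have hz1 : z = 1 ∨ z = -1 := by
    have h3 : (z - 1) * (z + 1) = 0 := by linear_combination hzz
    rcases mul_eq_zero.1 h3 with h | h
    · left; exact sub_eq_zero.1 h
    · right; exact eq_neg_of_add_eq_zero_left h
  rcases hz1 with rfl | rfl
  · refine ⟨x, hx, ?_, fun W h => h⟩
    apply Units.ext
    rw [hz, one_smul]
    rfl
  · have hxm : x ^ r = -1 := by
      apply Units.ext
      rw [hz, Units.val_neg, Units.val_one, neg_smul, one_smul]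
    refine ⟨-x, ?_, ?_, ?_⟩
    · rw [mem_iso]
      intro u
      rw [Units.val_neg, Matrix.neg_mulVec, q_neg]
      exact (mem_iso _ x).1 hx u
    · rw [Odd.neg_pow hr, hxm, neg_neg]
    · intro W h
      rintro _ ⟨w, hw, rfl⟩
      have h1 : Matrix.toLin' ((-x : Matrix.GeneralLinearGroup (J d) F) : Matrix (J d) (J d) F) w
          ∈ W := h ⟨w, hw, rfl⟩
      rw [Units.val_neg, Matrix.toLin'_apply, Matrix.neg_mulVec, W.neg_mem_iff] at h1
      rw [Matrix.toLin'_apply]
      exact h1

end Cfsg.Agent.Lib.Helper6.TPPROJ
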