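import Mathlib
import Cfsg.Agent.Lib.Helper44.TPStmt
import Cfsg.Agent.Lib.Helper44.NegPairs

set_option autoImplicit false

/-! S5973 piece TSEXT: a totally singular subspace of finrank `< d` is not maximal. -/

namespace Cfsg.Agent.Lib.Helper6.TPTSEXT

open Cfsg.Agent.Lib.Helper44.TPStmt Cfsg.Agent.Lib.Helper44.NegPairs

universe u

theorem arith (q d j : ℕ) (hq : 2 ≤ q) (hj : j < d) :
    q ^ j < q ^ (d - 1) * (q ^ (d - j) + q - 1) := by
  have h1 : q ^ j ≤ q ^ (d - 1) := Nat.pow_le_pow_right (by omega) (by omega)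
  have h2 : 1 ≤ q ^ (d - j) := Nat.one_le_pow _ _ (by omega)
  have h3 : 1 ≤ q ^ (d - 1) := Nat.one_le_pow _ _ (by omega)
  have h4 : 2 ≤ q ^ (d - j) + q - 1 := by omega
  calc q ^ j ≤ q ^ (d - 1) := h1
    _ < q ^ (d - 1) * 2 := by omega
    _ ≤ q ^ (d - 1) * (q ^ (d - j) + q - 1) := Nat.mul_le_mul_left _ h4

theorem main : SingCnt.{u} → TsExt.{u} := by
  intro hS F _ _ d U hU hlt
  classical
  let b := Module.finBasis F ↥U
  have hvU : ∀ a, ((b a : ↥U) : J d → F) ∈ U := fun a => (b a).2
  have hli : LinearIndependent F (fun a => ((b a : ↥U) : J d → F)) :=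
    b.linearIndependent.map' U.subtype (Submodule.ker_subtype U)
  have hpol : ∀ x ∈ U, ∀ y ∈ U, QuadraticMap.polar (Cfsg.quadFormPlus d F) x y = 0 := by
    intro x hx y hy
    rw [QuadraticMap.polar, hU _ (U.add_mem hx hy), hU _ hx, hU _ hy]
    simp
  have hcard := hS F d (Module.finrank F ↥U) (by omega) (by omega)
    ⟨fun a => ((b a : ↥U) : J d → F), hli, fun a => hU _ (hvU a),
      fun a c => hpol _ (hvU a) _ (hvU c)⟩
  -- some element of the count is outside `U`
  have key : ∃ s : {u : J d → F // Cfsg.quadFormPlus d F u = 0 ∧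
      ∀ a, QuadraticMap.polar (Cfsg.quadFormPlus d F) ((b a : ↥U) : J d → F) u = 0},
      s.1 ∉ U := by
    by_contra hcon0
    have hcon : ∀ s : {u : J d → F // Cfsg.quadFormPlus d F u = 0 ∧
        ∀ a, QuadraticMap.polar (Cfsg.quadFormPlus d F) ((b a : ↥U) : J d → F) u = 0},
        s.1 ∈ U := fun s => by_contra (fun h => hcon0 ⟨s, h⟩)
    have hinj : Function.Injective (fun s : {u : J d → F // Cfsg.quadFormPlus d F u = 0 ∧
        ∀ a, QuadraticMap.polar (Cfsg.quadFormPlus d F) ((b a : ↥U) : J d → F) u = 0} =>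
        (⟨s.1, hcon s⟩ : ↥U)) := by
      intro s s' h
      have h' : s.1 = s'.1 := by
        simpa using congrArg (fun t : ↥U => (t : J d → F)) h
      exact Subtype.ext h'
    have hle := Nat.card_le_card_of_injective _ hinj
    rw [hcard, Module.natCard_eq_pow_finrank (K := F) (V := ↥U), Nat.card_eq_fintype_card] at hle
    have := arith (Fintype.card F) d (Module.finrank F ↥U) Fintype.one_lt_card hlt
    omega
  obtain ⟨⟨v, hv0, hva⟩, hvU'⟩ := key
  refine ⟨v, hvU', hv0, ?_⟩
  -- linearity in the first argument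
  have hlin : ((QuadraticMap.polarBilin (plusQ d F)).flip v).comp U.subtype = 0 := by
    apply b.ext
    intro a
    simp only [LinearMap.comp_apply, Submodule.subtype_apply, LinearMap.flip_apply,
      QuadraticMap.polarBilin_apply_apply, LinearMap.zero_apply]
    rw [coe_plusQ]
    exact hva a
  intro u hu
  have h1 := congrArg (fun f : ↥U →ₗ[F] F => f ⟨u, hu⟩) hlin
  simp only [LinearMap.comp_apply, Submodule.subtype_apply, LinearMap.flip_apply,
    QuadraticMap.polarBilin_apply_apply, LinearMap.zero_apply] at h1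
  rw [coe_plusQ] at h1
  exact h1

end Cfsg.Agent.Lib.Helper6.TPTSEXT
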