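import Mathlib
import Cfsg.Agent.Lib.Helper41.UnitStmt
import Cfsg.Agent.Lib.Helper40.HPoly
import Cfsg.Agent.Lib.Helper40.GUReal
import Cfsg.Agent.Lib.Helper40.SSConj
import Cfsg.Agent.Lib.Helper40.PrimeFix
import Cfsg.Agent.Lib.Helper21.SubfROOTMULT
import Cfsg.Agent.S2568

set_option autoImplicit false
universe u
open scoped MatrixGroups

/-! S5982 piece BADUPOLY. -/

namespace Cfsg.Agent.Lib.Helper6.UnitBADUPOLY

open Polynomial UniqueFactorizationMonoid
open Cfsg.Agent.Lib.Helper40.HermAdj Cfsg.Agent.Lib.Helper40.RecipPoly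
open Cfsg.Agent.Lib.Helper41.UnitStmt

theorem main : Cfsg.Agent.Lib.Helper41.UnitStmt.BadUPoly.{u} := by
  intro F _ _ p _ _ q₀ hF φ hφ r _ hr2 hrp hi n x hx hfix hself
  classical
  have hr : r.Prime := Fact.out
  have hφ2 : ∀ y, φ (φ y) = y := by
    intro y
    rw [hφ, hφ, ← pow_mul, ← sq, ← hF, FiniteField.pow_card]
  have hrF : (r : F) ≠ 0 := Cfsg.Agent.Lib.Helper40.PrimeFix.cast_ne_zero' (F := F) (p := p) r hrp
  have hss := Cfsg.Agent.Lib.Helper40.SSConj.isSemisimple_toLin' x r hrF hx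
  have hrm := Cfsg.Agent.Lib.Helper21.SubfROOTMULT.main F n x hss
  obtain ⟨m, hm⟩ : ∃ m, m = x.charpoly.rootMultiplicity 1 := ⟨_, rfl⟩
  rw [← hm] at hrm
  have hχm : x.charpoly.Monic := Matrix.charpoly_monic x
  have hχdeg : x.charpoly.natDegree = n := by
    rw [Matrix.charpoly_natDegree_eq_dim]
    simp
  have hχ0 : x.charpoly ≠ 0 := hχm.ne_zero
  obtain ⟨g, hg⟩ : (X - C (1 : F)) ^ m ∣ x.charpoly := by
    rw [hm]
    exact Polynomial.pow_rootMultiplicity_dvd x.charpoly 1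
  have hg1 : ¬ (X - C (1 : F)) ∣ g := by
    intro hdvd
    obtain ⟨g', rfl⟩ := hdvd
    have h1 : (X - C (1 : F)) ^ (m + 1) ∣ x.charpoly := by
      rw [hg, pow_succ, ← mul_assoc]
      exact dvd_mul_right _ _
    have h2 := (Polynomial.le_rootMultiplicity_iff hχ0).mpr h1
    omega
  have hpm : ((X - C (1 : F)) ^ m).Monic := (monic_X_sub_C 1).pow m
  have hgm : g.Monic := hpm.of_mul_monic_left (hg ▸ hχm)
  have hgdeg : g.natDegree = orderOf ((Fintype.card F : ℕ) : ZMod r) := by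
    have h2 := hpm.natDegree_mul hgm
    rw [← hg, hχdeg, natDegree_pow, natDegree_X_sub_C, mul_one] at h2
    omega
  have hgnu : ¬ IsUnit g := by
    intro hu
    have h1 := natDegree_eq_zero_of_isUnit hu
    omega
  have hg0 : g ≠ 0 := hgm.ne_zero
  obtain ⟨P, hP⟩ := exists_mem_normalizedFactors hg0 hgnu
  have hPirr := irreducible_of_normalized_factor P hP
  have hPm : P.Monic := Cfsg.Agent.S2568.monic_of_mem_nf g P hP
  have hPg : P ∣ g := dvd_of_mem_normalizedFactors hP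
  have hPχ : P ∣ x.charpoly := hPg.trans (Dvd.intro_left _ hg.symm)
  have hPnf : P ∈ normalizedFactors x.charpoly := by
    obtain ⟨Q, hQ, hPQ⟩ := exists_mem_normalizedFactors_of_dvd hχ0 hPirr hPχ
    have hQm := Cfsg.Agent.S2568.monic_of_mem_nf _ Q hQ
    have hPQ' : P = Q := eq_of_monic_of_associated hPm hQm hPQ
    rw [hPQ']
    exact hQ
  have hPcases := Cfsg.Agent.Lib.Helper40.PrimeFix.factors_of_pow_eq_one (p := p) r hrp x hx P hPnf
  have hPne : P ≠ X - C 1 := by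
    rintro rfl
    exact hg1 hPg
  have hPdeg : P.natDegree = orderOf ((Fintype.card F : ℕ) : ZMod r) := by
    rcases hPcases with h | h
    · exact absurd h hPne
    · exact h
  have hPeq : g = P :=
    Polynomial.eq_of_monic_of_dvd_of_natDegree_le hPm hgm hPg (by rw [hPdeg, hgdeg])
  have hPdvd : P ∣ X ^ r - C (1 : F) := Cfsg.Agent.S2568.dvd_of_mem_nf_charpoly x _
    (by rw [map_sub, map_pow, aeval_X, aeval_C, map_one, hx, sub_self]) P hPnf
  obtain ⟨b, S, hipos, hb, hSne, h1S, hS, hdiv, hSstar, hSself⟩ :=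
    Cfsg.Agent.Lib.Helper40.HPoly.gu_cyclo_facts (p := p) hF φ hφ hφ2 r hr hr2 hrp
      (orderOf ((q₀ : ℕ) : ZMod r)) rfl
  have hPS : P ∈ S := by
    rcases (hdiv P hPirr hPm).mp hPdvd with h | h
    · exact absurd h hPne
    · exact h
  have hstar : rstar φ P = P := by
    rw [hg, rstar_mul, Cfsg.Agent.Lib.Helper40.GUReal.rstar_pow, rstar_X_sub_one, hPeq] at hself
    exact mul_left_cancel₀ (pow_ne_zero m (X_sub_C_ne_zero 1)) hself
  exact (hSself P hPS).mp hstar

end Cfsg.Agent.Lib.Helper6.UnitBADUPOLY
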