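import Mathlib
import Cfsg.Agent.Lib.Helper41.UnitStmt
import Cfsg.Agent.Lib.Helper40.HermDiag
import Cfsg.Agent.Lib.Helper40.NormSurj

set_option autoImplicit false
universe u
open scoped MatrixGroups

/-! S5982 piece FORM: the similarity group of a unitary form is a conjugate of the group of
scalar multiples of standard unitary matrices. -/

namespace Cfsg.Agent.Lib.Helper6.UnitFORM

open Matrix
open Cfsg.Agent.Lib.Helper40.HermAdj Cfsg.Agent.Lib.Helper40.HermDiag
open Cfsg.Agent.Lib.Helper40.NormSurj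
open Cfsg.Agent.Lib.Helper41.UnitStmt

section

variable {F : Type u} [Field F] [Fintype F] {q₀ : ℕ} {n : ℕ}

omit [Fintype F] in
theorem herm_smul (φ : F →+* F) (hφ : ∀ x, φ x = x ^ q₀) (a : F) (x y : Fin n → F) :
    Cfsg.hermForm n F q₀ (a • x) (a • y) = a * φ a * Cfsg.hermForm n F q₀ x y := by
  simp only [Cfsg.hermForm, Pi.smul_apply, smul_eq_mul, mul_pow, Finset.mul_sum, hφ]
  refine Finset.sum_congr rfl fun i _ => ?_
  ring

/-- A unitary form is the standard Hermitian form in suitable coordinates. -/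
theorem form_std (hF : Fintype.card F = q₀ ^ 2) (φ : F →+* F) (hφ : ∀ x, φ x = x ^ q₀)
    (f : (Fin n → F) → (Fin n → F) → F) (hf : Cfsg.Geo.IsUnitaryFormPow q₀ f) :
    ∃ Z : Matrix (Fin n) (Fin n) F, IsUnit Z.det ∧
      ∀ u v, f u v = Cfsg.hermForm n F q₀ (Z *ᵥ u) (Z *ᵥ v) := by
  classical
  have hφ2 : ∀ x, φ (φ x) = x := by
    intro x
    rw [hφ, hφ, ← pow_mul, ← sq, ← hF, FiniteField.pow_card]
  obtain ⟨φ', hφ', -, l, hl⟩ := exists_phi hF
  have hl' : φ l ≠ l := by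
    rw [hφ, ← hφ']
    exact hl
  have hherm : ∀ v w, f v w = φ (f w v) := fun v w => by
    rw [hφ]
    exact hf.herm v w
  obtain ⟨L, hL⟩ : ∃ L : (Fin n → F) → ((Fin n → F) →ₗ[F] F), ∀ v u, L v u = f u v :=
    ⟨fun v =>
      { toFun := fun u => f u v
        map_add' := fun x y => hf.add_left x y v
        map_smul' := fun c x => by simpa using hf.smul_left c x v }, fun v u => rfl⟩
  obtain ⟨e, he⟩ : ∃ e : Fin n → (Fin n → F), ∀ i j, e i j = if i = j then 1 else 0 :=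
    ⟨fun i j => if i = j then 1 else 0, fun i j => rfl⟩
  have he' : ∀ i, e i = fun j => if i = j then 1 else 0 := fun i => funext (he i)
  obtain ⟨H, hH⟩ : ∃ H : Matrix (Fin n) (Fin n) F, ∀ i j, H i j = f (e i) (e j) :=
    ⟨fun i j => f (e i) (e j), fun i j => rfl⟩
  have h1 : ∀ u v, f u v = ∑ i, u i * f (e i) v := by
    intro u v
    have h := LinearMap.pi_apply_eq_sum_univ (L v) u
    rw [hL] at h
    rw [h]
    refine Finset.sum_congr rfl fun i _ => ?_
    rw [← he', hL, smul_eq_mul]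
  have h2 : ∀ u v, f u v = ∑ j, φ (v j) * f u (e j) := by
    intro u v
    rw [hherm u v, h1 v u, map_sum]
    refine Finset.sum_congr rfl fun j _ => ?_
    rw [map_mul, ← hherm]
  have h3 : ∀ u v, f u v = u ⬝ᵥ (H *ᵥ (φ ∘ v)) := by
    intro u v
    rw [h1 u v]
    simp only [dotProduct, Matrix.mulVec, Function.comp_apply]
    refine Finset.sum_congr rfl fun i _ => ?_
    rw [h2 (e i) v]
    congr 1
    refine Finset.sum_congr rfl fun j _ => ?_
    rw [hH, mul_comm]
  have hHs : ∀ i j, φ (H j i) = H i j := fun i j => by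
    rw [hH, hH]
    exact (hherm (e i) (e j)).symm
  have hHdet : H.det ≠ 0 := by
    intro h0
    obtain ⟨w, hw0, hw⟩ := Matrix.exists_mulVec_eq_zero_iff.mpr h0
    have hφw : φ ∘ (φ ∘ w) = w := by
      funext i
      simp [hφ2]
    have hv0 : (φ ∘ w) ≠ 0 := by
      intro h
      apply hw0
      rw [← hφw, h]
      funext i
      simp
    obtain ⟨x, hx⟩ := (hf.nondegenerate _ hv0).1
    apply hx
    rw [h3, hφw, hw, dotProduct_zero]
  have hadj : adj φ Hᵀ = Hᵀ := by
    ext i j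
    rw [adj_apply]
    simp only [Matrix.transpose_apply]
    exact hHs j i
  have hunit : IsUnit Hᵀ := by
    rw [Matrix.isUnit_iff_isUnit_det, Matrix.det_transpose]
    exact isUnit_iff_ne_zero.mpr hHdet
  obtain ⟨z, hz, hzz⟩ := herm_std φ hφ2 l hl' Hᵀ hadj hunit
  refine ⟨z, (Matrix.isUnit_iff_isUnit_det z).mp hz, ?_⟩
  intro u v
  rw [herm_mulVec φ hφ, h3]
  have h5 : zᵀ * z.map φ = H := by
    have h4 := congrArg Matrix.transpose hzz
    rw [Matrix.transpose_transpose] at h4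
    rw [← h4]
    unfold adj
    rw [Matrix.transpose_mul, Matrix.transpose_transpose]
  rw [h5]

end

theorem main : Cfsg.Agent.Lib.Helper41.UnitStmt.Form.{u} := by
  intro F _ _ q₀ hF φ hφ n f hf
  classical
  have hφ2 : ∀ x, φ (φ x) = x := by
    intro x
    rw [hφ, hφ, ← pow_mul, ← sq, ← hF, FiniteField.pow_card]
  obtain ⟨φ', hφ', -, l, hl⟩ := exists_phi hF
  have hl' : φ l ≠ l := by
    rw [hφ, ← hφ']
    exact hl
  have hherm : ∀ v w, f v w = φ (f w v) := fun v w => by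
    rw [hφ]
    exact hf.herm v w
  obtain ⟨Z, hZ, hZf⟩ := form_std hF φ hφ f hf
  refine ⟨Z, hZ, ?_⟩
  have hZinv : Z⁻¹ * Z = 1 := Matrix.nonsing_inv_mul Z hZ
  have hZinv' : Z * Z⁻¹ = 1 := Matrix.mul_nonsing_inv Z hZ
  intro g
  constructor
  · rintro ⟨μ, hμ⟩
    rcases Nat.eq_zero_or_pos n with hn0 | hn
    · subst hn0
      exact ⟨1, 1, one_ne_zero, by rw [adj_one, one_mul], Subsingleton.elim _ _⟩
    · have hv0 : (Pi.single (⟨0, hn⟩ : Fin n) (1 : F) : Fin n → F) ≠ 0 := by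
        intro h
        have h' := congrFun h ⟨0, hn⟩
        simp at h'
      obtain ⟨x, hx⟩ := (hf.nondegenerate _ hv0).1
      have hμφ : φ (μ : F) = μ := by
        have e1 := hμ x (Pi.single (⟨0, hn⟩ : Fin n) (1 : F))
        have e2 := hμ (Pi.single (⟨0, hn⟩ : Fin n) (1 : F)) x
        rw [hherm, e2, map_mul, ← hherm] at e1
        exact mul_right_cancel₀ hx e1
      obtain ⟨c, hc⟩ := norm_surj φ hφ2 l
        (isUnit_iff_ne_zero.mpr (sub_ne_zero.mpr (Ne.symm hl'))) (μ : F) μ.isUnit hμφ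
      have hc0 : c ≠ 0 := by
        rintro rfl
        rw [zero_mul] at hc
        exact μ.ne_zero hc.symm
      have hφc0 : φ c ≠ 0 := by
        intro h
        rw [h, mul_zero] at hc
        exact μ.ne_zero hc.symm
      refine ⟨c, c⁻¹ • (Z * (g : Matrix (Fin n) (Fin n) F) * Z⁻¹), hc0, ?_, ?_⟩
      · rw [← preserves_iff φ hφ]
        intro u' v'
        have hu : u' = Z *ᵥ (Z⁻¹ *ᵥ u') := by
          rw [Matrix.mulVec_mulVec, hZinv', Matrix.one_mulVec]
        have hv : v' = Z *ᵥ (Z⁻¹ *ᵥ v') := by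
          rw [Matrix.mulVec_mulVec, hZinv', Matrix.one_mulVec]
        have hB : ∀ w : Fin n → F,
            (c⁻¹ • (Z * (g : Matrix (Fin n) (Fin n) F) * Z⁻¹)) *ᵥ w
              = c⁻¹ • (Z *ᵥ ((g : Matrix (Fin n) (Fin n) F) *ᵥ (Z⁻¹ *ᵥ w))) := by
          intro w
          rw [Matrix.smul_mulVec, Matrix.mulVec_mulVec, Matrix.mulVec_mulVec]
        rw [hB, hB, herm_smul φ hφ, ← hZf, hμ, ← hc]
        conv_rhs => rw [hu, hv, ← hZf]
        rw [map_inv₀]
        field_simp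
      · rw [Matrix.smul_mul, Matrix.smul_mul, smul_smul, mul_inv_cancel₀ hc0, one_smul,
          Matrix.mul_assoc, hZinv, Matrix.mul_one]
  · rintro ⟨c, B, hc0, hB, hZg⟩
    have hφc0 : φ c ≠ 0 := (map_ne_zero φ).mpr hc0
    refine ⟨Units.mk0 (c * φ c) (mul_ne_zero hc0 hφc0), ?_⟩
    intro u v
    have hB' := (preserves_iff φ hφ B).mpr hB
    have e : ∀ w : Fin n → F,
        Z *ᵥ ((g : Matrix (Fin n) (Fin n) F) *ᵥ w) = c • (B *ᵥ (Z *ᵥ w)) := by
      intro w
      rw [Matrix.mulVec_mulVec, hZg, ← Matrix.mulVec_mulVec, Matrix.smul_mulVec]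
    rw [hZf, e, e, herm_smul φ hφ, hB', ← hZf]
    rfl

end Cfsg.Agent.Lib.Helper6.UnitFORM
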