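import Mathlib
import Cfsg.Agent.Lib.Helper41.UnitStmt
import Cfsg.Agent.Lib.Helper40.HermAdj

set_option autoImplicit false
universe u
open scoped MatrixGroups

/-! S5982 piece IDXU1: `[SL : SL ∩ Δ] * |GU_n(q₀)| * (q₀ - 1)` divides `|GL_n(F)|`. -/

namespace Cfsg.Agent.Lib.Helper6.UnitIDXU1

open Matrix
open Cfsg.Agent.Lib.Helper40.HermAdj
open Cfsg.Agent.Lib.Helper41.UnitStmt

/-- For `K` normal, `[K : H ∩ K] * |H|` divides `|G|`. -/
theorem rel_aux {G : Type*} [Group G] [Finite G] (H K : Subgroup G) [K.Normal] :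
    H.relIndex K * Nat.card H ∣ Nat.card G := by
  have h1 : Nat.card (H ⊓ K : Subgroup G) * H.relIndex K = Nat.card K := by
    have h := Subgroup.relIndex_mul_relIndex (⊥ : Subgroup G) (H ⊓ K) K bot_le inf_le_right
    rwa [Subgroup.relIndex_bot_left, Subgroup.relIndex_bot_left, Subgroup.inf_relIndex_right] at h
  have h2 : Nat.card (H ⊓ K : Subgroup G) * K.relIndex H = Nat.card H := by
    have h := Subgroup.relIndex_mul_relIndex (⊥ : Subgroup G) (H ⊓ K) H bot_le inf_le_left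
    rwa [Subgroup.relIndex_bot_left, Subgroup.relIndex_bot_left, Subgroup.inf_relIndex_left] at h
  have h3 : Nat.card K * K.relIndex (H ⊔ K) = Nat.card (H ⊔ K : Subgroup G) := by
    have h := Subgroup.relIndex_mul_relIndex (⊥ : Subgroup G) K (H ⊔ K) bot_le le_sup_right
    rwa [Subgroup.relIndex_bot_left, Subgroup.relIndex_bot_left] at h
  rw [Subgroup.relIndex_sup_right] at h3
  have h4 : H.relIndex K * Nat.card H = Nat.card (H ⊔ K : Subgroup G) := by
    rw [← h3, ← h1, ← h2]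
    ring
  rw [h4]
  exact Subgroup.card_subgroup_dvd_card _

theorem main (hForm : Cfsg.Agent.Lib.Helper41.UnitStmt.Form.{u}) :
    Cfsg.Agent.Lib.Helper41.UnitStmt.IdxU1.{u} := by
  intro F _ _ q₀ hF n hn f hf
  classical
  obtain ⟨φ, hφ, hφ2, l, hl⟩ := exists_phi hF
  obtain ⟨Z, hZ, hZmem⟩ := hForm F q₀ hF φ hφ n f hf
  have hn0 : 0 < n := hn
  have key : Nat.card (Cfsg.GU n F q₀) * (q₀ - 1) ∣ Nat.card (Cfsg.Geo.similarityGroup f) := by
    have hZ' : IsUnit Z := (Matrix.isUnit_iff_isUnit_det Z).mpr hZ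
    obtain ⟨Zu, hZu⟩ : ∃ Zu : GL (Fin n) F, (Zu : Matrix (Fin n) (Fin n) F) = Z := ⟨hZ'.unit, rfl⟩
    obtain ⟨σ, hσ⟩ : ∃ σ : Fˣ →* GL (Fin n) F,
        ∀ c : Fˣ, ((σ c : GL (Fin n) F) : Matrix (Fin n) (Fin n) F) = (c : F) • 1 :=
      ⟨Units.map (Matrix.scalar (Fin n)).toMonoidHom, fun c => by
        simp [Matrix.smul_one_eq_diagonal]⟩
    have hcomm : ∀ (m : Cfsg.GU n F q₀) (c : Fˣ),
        Commute ((Cfsg.GU n F q₀).subtype m) (σ c) := by
      intro m c
      apply Units.ext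
      rw [Units.val_mul, Units.val_mul, hσ]
      simp
    obtain ⟨Ψ, hΨ⟩ : ∃ Ψ : (Cfsg.GU n F q₀) × Fˣ →* GL (Fin n) F,
        ∀ p, Ψ p = Zu⁻¹ * ((p.1 : GL (Fin n) F) * σ p.2) * Zu :=
      ⟨(MulAut.conj Zu⁻¹).toMonoidHom.comp
        (MonoidHom.noncommCoprod (Cfsg.GU n F q₀).subtype σ hcomm), fun p => by
          simp⟩
    have hrange : Ψ.range ≤ Cfsg.Geo.similarityGroup f := by
      rintro _ ⟨p, rfl⟩
      rw [hZmem]
      refine ⟨(p.2 : F), ((p.1 : GL (Fin n) F) : Matrix (Fin n) (Fin n) F), p.2.ne_zero,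
        (mem_GU_iff φ hφ _).mp p.1.2, ?_⟩
      have e1 : ((p.1 : GL (Fin n) F) : Matrix (Fin n) (Fin n) F)
          * ((σ p.2 : GL (Fin n) F) : Matrix (Fin n) (Fin n) F)
          = (p.2 : F) • ((p.1 : GL (Fin n) F) : Matrix (Fin n) (Fin n) F) := by
        rw [hσ, Matrix.mul_smul, Matrix.mul_one]
      rw [hΨ, Units.val_mul, Units.val_mul, Units.val_mul, e1, ← hZu, ← Matrix.mul_assoc,
        ← Matrix.mul_assoc, Units.mul_inv, Matrix.one_mul]
    have hker : ∀ p ∈ Ψ.ker, (p.1 : GL (Fin n) F) = (σ p.2)⁻¹ ∧ (p.2 : Fˣ) ^ (q₀ + 1) = 1 := by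
      intro p hp
      rw [MonoidHom.mem_ker, hΨ] at hp
      have h1 : (p.1 : GL (Fin n) F) * σ p.2 = 1 := by
        have h0 := congrArg (fun x => Zu * x * Zu⁻¹) hp
        simpa [mul_assoc] using h0
      have h2 : (p.1 : GL (Fin n) F) = (σ p.2)⁻¹ := eq_inv_of_mul_eq_one_left h1
      refine ⟨h2, ?_⟩
      have h3 : σ p.2 ∈ Cfsg.GU n F q₀ := by
        have h0 := (Cfsg.GU n F q₀).inv_mem p.1.2
        rw [h2, inv_inv] at h0
        exact h0
      have h4 := (mem_GU_iff φ hφ _).mp h3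
      rw [hσ] at h4
      have h5 := congrFun (congrFun h4 ⟨0, hn0⟩) ⟨0, hn0⟩
      have h6 : (adj φ ((p.2 : F) • (1 : Matrix (Fin n) (Fin n) F)) * ((p.2 : F) • 1))
          ⟨0, hn0⟩ ⟨0, hn0⟩ = φ (p.2 : F) * (p.2 : F) := by
        rw [Matrix.mul_smul, Matrix.mul_one, Matrix.smul_apply, adj_apply, Matrix.smul_apply,
          Matrix.one_apply_eq, smul_eq_mul, smul_eq_mul, mul_one, mul_comm]
      rw [h6, Matrix.one_apply_eq, hφ] at h5
      apply Units.ext
      rw [Units.val_pow_eq_pow_val, Units.val_one, pow_succ]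
      exact h5
    obtain ⟨h, hh⟩ : ∃ h : Ψ.ker →* Fˣ, ∀ a : Ψ.ker, h a = a.1.2 :=
      ⟨(MonoidHom.snd _ _).comp Ψ.ker.subtype, fun a => rfl⟩
    have hinj : Function.Injective h := by
      intro a b hab
      have ha := (hker a.1 a.2).1
      have hb := (hker b.1 b.2).1
      have hab' : a.1.2 = b.1.2 := by rw [← hh, ← hh]; exact hab
      apply Subtype.ext
      apply Prod.ext
      · apply Subtype.ext
        rw [ha, hb, hab']
      · exact hab'
    haveI : IsCyclic Ψ.ker := isCyclic_of_injective h hinj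
    obtain ⟨g, hg⟩ := IsCyclic.exists_ofOrder_eq_natCard (α := Ψ.ker)
    have hgpow : g ^ (q₀ + 1) = 1 := by
      apply hinj
      rw [map_pow, map_one, hh]
      exact (hker g.1 g.2).2
    have hkdvd : Nat.card Ψ.ker ∣ q₀ + 1 := by
      rw [← hg]
      exact orderOf_dvd_of_pow_eq_one hgpow
    have hcount : Nat.card Ψ.ker * Nat.card Ψ.range
        = Nat.card (Cfsg.GU n F q₀) * (q₀ ^ 2 - 1) := by
      rw [← Subgroup.index_ker, Subgroup.card_mul_index, Nat.card_prod, Nat.card_units,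
        Nat.card_eq_fintype_card (α := F), hF]
    obtain ⟨t, ht⟩ := hkdvd
    have hkpos : 0 < Nat.card Ψ.ker := Nat.card_pos
    have hq1 : 1 ≤ q₀ := by
      by_contra h0
      have hq0 : q₀ = 0 := by omega
      rw [hq0] at hF
      have hpos : 0 < Fintype.card F := Fintype.card_pos
      omega
    have hq : q₀ ^ 2 - 1 = (q₀ - 1) * (q₀ + 1) := by
      obtain ⟨m, rfl⟩ := Nat.exists_eq_add_of_le hq1
      have e : (1 + m) ^ 2 = (1 + m - 1) * (1 + m + 1) + 1 := by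
        have e1 : 1 + m - 1 = m := by omega
        rw [e1]
        ring
      omega
    have hr : Nat.card Ψ.range = Nat.card (Cfsg.GU n F q₀) * (q₀ - 1) * t := by
      apply Nat.eq_of_mul_eq_mul_left hkpos
      rw [hcount, hq, ht]
      ring
    exact (Dvd.intro _ hr.symm).trans (Subgroup.card_dvd_of_le hrange)
  haveI hSLn : (Cfsg.Geo.specialLinear (Fin n) F).Normal := by
    unfold Cfsg.Geo.specialLinear
    infer_instance
  have hrel := rel_aux (Cfsg.Geo.similarityGroup f) (Cfsg.Geo.specialLinear (Fin n) F)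
  exact (Nat.mul_dvd_mul_left _ key).trans hrel

end Cfsg.Agent.Lib.Helper6.UnitIDXU1
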